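import Mathlib

/-!
# A bit-coded model of the extraspecial group `2^{1+6}_+` and a non-split four-group of
outer automorphisms

`E3` has elements `(e, v)` with `e : Bool`, `v : Fin 64` (six bits `x1 y1 x2 y2 x3 y3`) and
multiplication `(e, v) (e', v') = (e + e' + c(v, v'), v + v')`, `c(v, v') = Σ x_i y'_i`.
`psi1`, `psi2` are involutory automorphisms whose images in `Out` commute, but no choice of
inner adjustments makes them commuting involutions (`cert`).
-/

set_option autoImplicit false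

namespace Cfsg.Agent.Lib.Helper6.ES3

/-- xor on `Fin 64`. -/
def fx (a b : Fin 64) : Fin 64 :=
  ⟨a.val ^^^ b.val, Nat.xor_lt_two_pow (n := 6) a.isLt b.isLt⟩

theorem fx_assoc (a b c : Fin 64) : fx (fx a b) c = fx a (fx b c) := by
  apply Fin.ext; simp only [fx]; exact Nat.xor_assoc _ _ _

theorem fx_comm (a b : Fin 64) : fx a b = fx b a := by
  apply Fin.ext; simp only [fx]; exact Nat.xor_comm _ _

theorem fx_self (a : Fin 64) : fx a a = 0 := by
  apply Fin.ext; simp only [fx]; simp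

theorem fx_zero (a : Fin 64) : fx a 0 = a := by
  apply Fin.ext; simp only [fx]; simp

theorem zero_fx (a : Fin 64) : fx 0 a = a := by
  apply Fin.ext; simp only [fx]; simp

/-- the bilinear cocycle `Σ x_i y'_i`. -/
def cB (v w : Fin 64) : Bool :=
  ((v.val.testBit 0 && w.val.testBit 1) ^^ (v.val.testBit 2 && w.val.testBit 3)) ^^
    (v.val.testBit 4 && w.val.testBit 5)

theorem cB_fx_left (a b c : Fin 64) : cB (fx a b) c = (cB a c ^^ cB b c) := by
  simp only [cB, fx, Nat.testBit_xor]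
  generalize a.val.testBit 0 = a0; generalize a.val.testBit 2 = a2
  generalize a.val.testBit 4 = a4; generalize b.val.testBit 0 = b0
  generalize b.val.testBit 2 = b2; generalize b.val.testBit 4 = b4
  generalize c.val.testBit 1 = c1; generalize c.val.testBit 3 = c3
  generalize c.val.testBit 5 = c5
  revert a0 a2 a4 b0 b2 b4 c1 c3 c5; decide

theorem cB_fx_right (a b c : Fin 64) : cB a (fx b c) = (cB a b ^^ cB a c) := by
  simp only [cB, fx, Nat.testBit_xor]
  generalize a.val.testBit 0 = a0; generalize a.val.testBit 2 = a2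
  generalize a.val.testBit 4 = a4; generalize b.val.testBit 1 = b1
  generalize b.val.testBit 3 = b3; generalize b.val.testBit 5 = b5
  generalize c.val.testBit 1 = c1; generalize c.val.testBit 3 = c3
  generalize c.val.testBit 5 = c5
  revert a0 a2 a4 b1 b3 b5 c1 c3 c5; decide

theorem cB_zero_left (a : Fin 64) : cB 0 a = false := by
  simp [cB]

theorem cB_zero_right (a : Fin 64) : cB a 0 = false := by
  simp [cB]

/-- The model of `2^{1+6}_+`. -/
@[ext] structure E3 where
  e : Bool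
  v : Fin 64
deriving DecidableEq, Fintype

instance : Mul E3 := ⟨fun a b => ⟨(a.e ^^ b.e) ^^ cB a.v b.v, fx a.v b.v⟩⟩
instance : One E3 := ⟨⟨false, 0⟩⟩
instance : Inv E3 := ⟨fun a => ⟨a.e ^^ cB a.v a.v, a.v⟩⟩

theorem mul_def (a b : E3) : a * b = ⟨(a.e ^^ b.e) ^^ cB a.v b.v, fx a.v b.v⟩ := rfl
theorem one_def : (1 : E3) = ⟨false, 0⟩ := rfl
theorem inv_def (a : E3) : a⁻¹ = ⟨a.e ^^ cB a.v a.v, a.v⟩ := rfl

instance : Group E3 :=
  Group.ofLeftAxioms
    (by
      intro a b c
      simp only [mul_def, E3.mk.injEq]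
      refine ⟨?_, fx_assoc _ _ _⟩
      rw [cB_fx_left, cB_fx_right]
      generalize a.e = p1; generalize b.e = p2; generalize c.e = p3
      generalize cB a.v b.v = q1; generalize cB a.v c.v = q2; generalize cB b.v c.v = q3
      revert p1 p2 p3 q1 q2 q3; decide)
    (by
      rintro ⟨e, v⟩
      simp only [mul_def, one_def, E3.mk.injEq, cB_zero_left, zero_fx]
      cases e <;> simp)
    (by
      rintro ⟨e, v⟩
      simp only [mul_def, inv_def, one_def, E3.mk.injEq, fx_self]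
      cases e <;> cases cB v v <;> simp)

theorem card_E3 : Nat.card E3 = 128 := by
  rw [Nat.card_eq_fintype_card]; rfl

/-- the central involution. -/
def z : E3 := ⟨true, 0⟩

theorem z_mul_z : z * z = 1 := by decide

theorem z_ne_one : z ≠ 1 := by decide

theorem z_comm : ∀ a : E3, z * a = a * z := by
  rintro ⟨e, v⟩
  simp only [z, mul_def, E3.mk.injEq, cB_zero_left, cB_zero_right, zero_fx, fx_zero]
  cases e <;> simp

/-- the six standard generators. -/
def gens : List E3 := [⟨false, 1⟩, ⟨false, 2⟩, ⟨false, 4⟩, ⟨false, 8⟩, ⟨false, 16⟩, ⟨false, 32⟩]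

theorem forall_iff {P : E3 → Prop} : (∀ a : E3, P a) ↔ ∀ (e : Bool) (v : Fin 64), P ⟨e, v⟩ :=
  ⟨fun h e v => h ⟨e, v⟩, fun h a => h a.e a.v⟩

theorem center_aux : ∀ (e : Bool) (v : Fin 64),
    (∀ b ∈ gens, (⟨e, v⟩ : E3) * b = b * ⟨e, v⟩) → (⟨e, v⟩ : E3) = 1 ∨ (⟨e, v⟩ : E3) = z := by
  decide +kernel

theorem central_cases (a : E3) (h : ∀ b, a * b = b * a) : a = 1 ∨ a = z :=
  center_aux a.e a.v fun b _ => h b

theorem comm_cases (a b : E3) : a * b = b * a ∨ a * b = z * (b * a) := by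
  rcases a with ⟨e, v⟩
  rcases b with ⟨e', v'⟩
  simp only [z, mul_def, E3.mk.injEq, cB_zero_left, zero_fx, fx_comm v' v]
  cases e <;> cases e' <;> cases cB v v' <;> cases cB v' v <;> simp

/-- lookup of a linear map given by a packed table. -/
def gt (G : ℕ) (v : Fin 64) : Fin 64 :=
  ⟨(G >>> (6 * v.val)) &&& 63, Nat.and_lt_two_pow _ (n := 6) (by decide)⟩

/-- the automorphism `(e, v) ↦ (e + f v, g v)` given by packed tables. -/
def psiFun (G F : ℕ) (a : E3) : E3 := ⟨a.e ^^ F.testBit a.v.val, gt G a.v⟩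

def G1 : ℕ := 6869788226649238943987307863359984577857164589549278675440195005071884443463921892336912612094038248601379847020608
def F1 : ℕ := 72056498821201920
def G2 : ℕ := 36284790286604378606940538003197135117677716258913193529816740014529933942612427027945850917340446954500851817537600
def F2 : ℕ := 3746937718790212608

theorem hom_aux1 : ∀ v w : Fin 64, gt G1 (fx v w) = fx (gt G1 v) (gt G1 w) ∧
    (F1.testBit (fx v w).val ^^ cB v w) =
      ((F1.testBit v.val ^^ F1.testBit w.val) ^^ cB (gt G1 v) (gt G1 w)) := by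
  decide +kernel

theorem hom_aux2 : ∀ v w : Fin 64, gt G2 (fx v w) = fx (gt G2 v) (gt G2 w) ∧
    (F2.testBit (fx v w).val ^^ cB v w) =
      ((F2.testBit v.val ^^ F2.testBit w.val) ^^ cB (gt G2 v) (gt G2 w)) := by
  decide +kernel

theorem psiFun_mul (G F : ℕ)
    (h : ∀ v w : Fin 64, gt G (fx v w) = fx (gt G v) (gt G w) ∧
      (F.testBit (fx v w).val ^^ cB v w) =
        ((F.testBit v.val ^^ F.testBit w.val) ^^ cB (gt G v) (gt G w)))
    (a b : E3) : psiFun G F (a * b) = psiFun G F a * psiFun G F b := by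
  rcases a with ⟨e, v⟩
  rcases b with ⟨e', v'⟩
  obtain ⟨h1, h2⟩ := h v v'
  simp only [psiFun, mul_def, E3.mk.injEq]
  refine ⟨?_, h1⟩
  revert h2
  generalize F.testBit (fx v v').val = p1; generalize cB v v' = p2
  generalize F.testBit v.val = p3; generalize F.testBit v'.val = p4
  generalize cB (gt G v) (gt G v') = p5
  revert e e' p1 p2 p3 p4 p5; decide

theorem invol_aux1 : ∀ (e : Bool) (v : Fin 64),
    psiFun G1 F1 (psiFun G1 F1 ⟨e, v⟩) = ⟨e, v⟩ := by decide +kernel

theorem invol_aux2 : ∀ (e : Bool) (v : Fin 64),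
    psiFun G2 F2 (psiFun G2 F2 ⟨e, v⟩) = ⟨e, v⟩ := by decide +kernel

/-- first automorphism. -/
def psi1 : E3 ≃* E3 where
  toFun := psiFun G1 F1
  invFun := psiFun G1 F1
  left_inv a := invol_aux1 a.e a.v
  right_inv a := invol_aux1 a.e a.v
  map_mul' := psiFun_mul G1 F1 hom_aux1

/-- second automorphism. -/
def psi2 : E3 ≃* E3 where
  toFun := psiFun G2 F2
  invFun := psiFun G2 F2
  left_inv a := invol_aux2 a.e a.v
  right_inv a := invol_aux2 a.e a.v
  map_mul' := psiFun_mul G2 F2 hom_aux2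

theorem psi1_apply (a : E3) : psi1 a = psiFun G1 F1 a := rfl
theorem psi2_apply (a : E3) : psi2 a = psiFun G2 F2 a := rfl

theorem psi1_z : psi1 z = z := by decide +kernel
theorem psi2_z : psi2 z = z := by decide +kernel

theorem psi1_psi1 (a : E3) : psi1 (psi1 a) = a := invol_aux1 a.e a.v
theorem psi2_psi2 (a : E3) : psi2 (psi2 a) = a := invol_aux2 a.e a.v

/-- the element with `(psi1 psi2)^2 = conj sE`. -/
def sE : E3 := ⟨false, 52⟩

theorem comm_aux : ∀ (e : Bool) (v : Fin 64),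
    psiFun G1 F1 (psiFun G2 F2 (psiFun G1 F1 (psiFun G2 F2 ⟨e, v⟩))) = sE * ⟨e, v⟩ * sE⁻¹ := by
  decide +kernel

theorem psi_comm (a : E3) : psi1 (psi2 (psi1 (psi2 a))) = sE * a * sE⁻¹ := comm_aux a.e a.v

/-- `psi ∘ conj (false, β)`. -/
def th (G F : ℕ) (β : Fin 64) (x : E3) : E3 :=
  psiFun G F ((⟨false, β⟩ : E3) * x * (⟨false, β⟩ : E3)⁻¹)

/-- The certificate: no inner adjustments make `psi1`, `psi2` commuting involutions. -/
theorem cert : ∀ β1 β2 : Fin 64,
    ¬ ((∀ x ∈ gens, th G1 F1 β1 (th G1 F1 β1 x) = x) ∧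
       (∀ x ∈ gens, th G2 F2 β2 (th G2 F2 β2 x) = x) ∧
       (∀ x ∈ gens, th G1 F1 β1 (th G2 F2 β2 x) = th G2 F2 β2 (th G1 F1 β1 x))) := by
  decide +kernel

theorem conj_eq (b x : E3) : b * x * b⁻¹ = (⟨false, b.v⟩ : E3) * x * (⟨false, b.v⟩ : E3)⁻¹ := by
  rcases b with ⟨e, v⟩
  rcases x with ⟨e', v'⟩
  simp only [mul_def, inv_def, E3.mk.injEq, and_true]
  cases e <;> simp

/-- Final form of the certificate, for arbitrary inner adjustments. -/
theorem cert' (b1 b2 : E3)
    (h1 : ∀ x, psi1 (b1 * psi1 (b1 * x * b1⁻¹) * b1⁻¹) = x)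
    (h2 : ∀ x, psi2 (b2 * psi2 (b2 * x * b2⁻¹) * b2⁻¹) = x)
    (h3 : ∀ x, psi1 (b1 * psi2 (b2 * x * b2⁻¹) * b1⁻¹) = psi2 (b2 * psi1 (b1 * x * b1⁻¹) * b2⁻¹)) :
    False := by
  refine cert b1.v b2.v ⟨fun x _ => ?_, fun x _ => ?_, fun x _ => ?_⟩
  · have := h1 x
    rw [conj_eq b1 x, conj_eq b1 (psi1 _)] at this
    exact this
  · have := h2 x
    rw [conj_eq b2 x, conj_eq b2 (psi2 _)] at this
    exact this
  · have := h3 x
    rw [conj_eq b2 x, conj_eq b1 (psi2 _), conj_eq b1 x, conj_eq b2 (psi1 _)] at this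
    exact this

/-- the elementary abelian subgroup of order 16 (as a predicate). -/
def inA (a : E3) : Prop := a.v.val &&& 42 = 0

instance : DecidablePred inA := fun a => by unfold inA; infer_instance

theorem inA_aux : ∀ (e e' : Bool) (v v' : Fin 64), inA ⟨e, v⟩ → inA ⟨e', v'⟩ →
    inA ((⟨e, v⟩ : E3) * ⟨e', v'⟩) ∧ (⟨e, v⟩ : E3) * ⟨e', v'⟩ = ⟨e', v'⟩ * ⟨e, v⟩ ∧
      (⟨e, v⟩ : E3) * ⟨e, v⟩ = 1 := by
  decide +kernel

theorem inA_mul (a b : E3) (ha : inA a) (hb : inA b) : inA (a * b) :=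
  (inA_aux a.e b.e a.v b.v ha hb).1

theorem inA_comm (a b : E3) (ha : inA a) (hb : inA b) : a * b = b * a :=
  (inA_aux a.e b.e a.v b.v ha hb).2.1

theorem inA_sq (a : E3) (ha : inA a) : a * a = 1 :=
  (inA_aux a.e a.e a.v a.v ha ha).2.2

theorem inA_one : inA 1 := by decide

theorem card_inA : Fintype.card {a : E3 // inA a} = 16 := by decide +kernel

theorem exists_noncomm : ∃ a b : E3, a * b ≠ b * a := ⟨⟨false, 1⟩, ⟨false, 2⟩, by decide⟩

end Cfsg.Agent.Lib.Helper6.ES3
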