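import Mathlib
import Cfsg.Prelude.Def_Transfer
import Cfsg.Prelude.Def_CaseTheorems
import Cfsg.Agent.Lib.Helper6.ES3
import Cfsg.Agent.Lib.Helper2.ESLExtra

/-!
# A model of `2^{1+2(m+3)}_+` containing `E3` as a central factor

`TW m` is the set `E3 × (Fin m → ZMod 2 × ZMod 2)` with the multiplication twisted by a
bilinear cocycle with values in the centre of `E3`.  The automorphisms `psi1`, `psi2` of `E3`
extend to `TW m`, and the certificate `ES3.cert'` shows that `Inn (TW m)` has no complement.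
-/

set_option autoImplicit false

namespace Cfsg.Agent.Lib.Helper6.ES3

open Subgroup
open scoped commutatorElement

/-- `t ↦ z ^ t`. -/
def zeta (t : ZMod 2) : E3 := if t = 0 then 1 else z

theorem zeta_add : ∀ s t : ZMod 2, zeta (s + t) = zeta s * zeta t := by decide
theorem zeta_zero : zeta 0 = 1 := rfl
theorem zeta_neg : ∀ t : ZMod 2, zeta (-t) = zeta t := by decide
theorem zeta_self : ∀ t : ZMod 2, zeta t * zeta t = 1 := by decide
theorem zeta_inj : ∀ s t : ZMod 2, zeta s = zeta t → s = t := by decide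
theorem zeta_rel : ∀ s t : ZMod 2, zeta s = zeta t ∨ zeta s = z * zeta t := by decide
theorem zeta_comm (t : ZMod 2) (x : E3) : zeta t * x = x * zeta t := by
  unfold zeta
  split_ifs
  · simp
  · exact z_comm x
theorem psi1_zeta : ∀ t : ZMod 2, psi1 (zeta t) = zeta t := by decide +kernel
theorem psi2_zeta : ∀ t : ZMod 2, psi2 (zeta t) = zeta t := by decide +kernel

/-- the vector part. -/
abbrev WW (m : ℕ) := Fin m → ZMod 2 × ZMod 2

variable {m : ℕ}

/-- the cocycle `Σ x_i y'_i`. -/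
def cm (w w' : WW m) : ZMod 2 := ∑ i, (w i).1 * (w' i).2

theorem cm_add_left (w w' u : WW m) : cm (w + w') u = cm w u + cm w' u := by
  simp [cm, add_mul, Finset.sum_add_distrib]
theorem cm_add_right (w u u' : WW m) : cm w (u + u') = cm w u + cm w u' := by
  simp [cm, mul_add, Finset.sum_add_distrib]
theorem cm_zero_left (u : WW m) : cm 0 u = 0 := by simp [cm]
theorem cm_zero_right (w : WW m) : cm w 0 = 0 := by simp [cm]
theorem cm_neg_left (w u : WW m) : cm (-w) u = - cm w u := by
  simp [cm]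
theorem cm_neg_right (w u : WW m) : cm w (-u) = - cm w u := by
  simp [cm]

/-- The twisted product. -/
@[ext] structure TW (m : ℕ) where
  a : E3
  w : WW m

instance : Mul (TW m) := ⟨fun x y => ⟨x.a * y.a * zeta (cm x.w y.w), x.w + y.w⟩⟩
instance : One (TW m) := ⟨⟨1, 0⟩⟩
instance : Inv (TW m) := ⟨fun x => ⟨x.a⁻¹ * zeta (cm x.w x.w), -x.w⟩⟩

theorem tmul_def (x y : TW m) : x * y = ⟨x.a * y.a * zeta (cm x.w y.w), x.w + y.w⟩ := rfl
theorem tone_def : (1 : TW m) = ⟨1, 0⟩ := rfl
theorem tinv_def (x : TW m) : x⁻¹ = ⟨x.a⁻¹ * zeta (cm x.w x.w), -x.w⟩ := rfl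

instance : Group (TW m) :=
  Group.ofLeftAxioms
    (by
      intro x y u
      simp only [tmul_def, TW.mk.injEq]
      refine ⟨?_, add_assoc _ _ _⟩
      rw [cm_add_left, cm_add_right, zeta_add, zeta_add]
      have e1 : zeta (cm x.w y.w) * u.a = u.a * zeta (cm x.w y.w) := zeta_comm _ _
      have e2 : zeta (cm y.w u.w) * (zeta (cm x.w y.w) * zeta (cm x.w u.w)) =
          zeta (cm x.w y.w) * zeta (cm x.w u.w) * zeta (cm y.w u.w) := zeta_comm _ _
      calc x.a * y.a * zeta (cm x.w y.w) * u.a * (zeta (cm x.w u.w) * zeta (cm y.w u.w))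
          = x.a * y.a * u.a *
              (zeta (cm x.w y.w) * zeta (cm x.w u.w) * zeta (cm y.w u.w)) := by
            rw [mul_assoc (x.a * y.a) (zeta (cm x.w y.w)) u.a, e1]; simp only [mul_assoc]
        _ = x.a * (y.a * u.a * zeta (cm y.w u.w)) *
              (zeta (cm x.w y.w) * zeta (cm x.w u.w)) := by
            rw [← e2]; simp only [mul_assoc])
    (by
      intro x
      simp only [tmul_def, tone_def, cm_zero_left, zeta_zero, one_mul, mul_one, zero_add])
    (by
      intro x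
      simp only [tmul_def, tinv_def, tone_def, TW.mk.injEq, neg_add_cancel, and_true]
      rw [cm_neg_left, zeta_neg, mul_assoc (x.a⁻¹), zeta_comm, ← mul_assoc, inv_mul_cancel,
        one_mul, zeta_self])

theorem a_mul (x y : TW m) : (x * y).a = x.a * y.a * zeta (cm x.w y.w) := rfl
theorem w_mul (x y : TW m) : (x * y).w = x.w + y.w := rfl
theorem a_one : (1 : TW m).a = 1 := rfl
theorem w_one : (1 : TW m).w = 0 := rfl

/-- `TW m` as a product set. -/
def twEquiv (m : ℕ) : TW m ≃ E3 × WW m where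
  toFun x := (x.a, x.w)
  invFun p := ⟨p.1, p.2⟩
  left_inv _ := rfl
  right_inv _ := rfl

instance : Finite (TW m) := Finite.of_equiv _ (twEquiv m).symm

theorem card_TW (m : ℕ) : Nat.card (TW m) = 2 ^ (2 * (m + 3) + 1) := by
  rw [Nat.card_congr (twEquiv m), Nat.card_prod, card_E3, Nat.card_fun, Nat.card_prod]
  simp only [Nat.card_eq_fintype_card, ZMod.card, Fintype.card_fin]
  have : 2 * (m + 3) + 1 = 7 + 2 * m := by ring
  rw [this, pow_add, pow_mul]
  norm_num

/-- embedding of `E3`. -/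
def inl (x : E3) : TW m := ⟨x, 0⟩

/-- the central involution of `TW m`. -/
def zT : TW m := ⟨z, 0⟩

theorem zT_central (x : TW m) : zT * x = x * zT := by
  simp only [zT, tmul_def, TW.mk.injEq, cm_zero_left, cm_zero_right, zeta_zero, mul_one,
    zero_add, add_zero, and_true]
  exact z_comm _

theorem zT_sq : (zT : TW m) * zT = 1 := by
  simp only [zT, tmul_def, tone_def, TW.mk.injEq, cm_zero_left, zeta_zero, mul_one, add_zero,
    and_true]
  exact z_mul_z

theorem zT_ne_one : (zT : TW m) ≠ 1 := by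
  intro h
  have := congrArg TW.a h
  exact z_ne_one this

theorem cm_single_left (i : Fin m) (w : WW m) : cm (Pi.single i (1, 0)) w = (w i).2 := by
  unfold cm
  rw [Finset.sum_eq_single i]
  · simp
  · intro j _ hj
    simp [hj]
  · intro h; exact absurd (Finset.mem_univ i) h

theorem cm_single_right (i : Fin m) (w : WW m) : cm w (Pi.single i (0, 1)) = (w i).1 := by
  unfold cm
  rw [Finset.sum_eq_single i]
  · simp
  · intro j _ hj
    simp [hj]
  · intro h; exact absurd (Finset.mem_univ i) h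

theorem cm_single_left' (i : Fin m) (w : WW m) : cm (Pi.single i (0, 1)) w = 0 := by
  unfold cm
  apply Finset.sum_eq_zero
  intro j _
  by_cases hj : j = i
  · subst hj; simp
  · simp [hj]

theorem cm_single_right' (i : Fin m) (w : WW m) : cm w (Pi.single i (1, 0)) = 0 := by
  unfold cm
  apply Finset.sum_eq_zero
  intro j _
  by_cases hj : j = i
  · subst hj; simp
  · simp [hj]

theorem central_cases_T (x : TW m) (hx : ∀ y, y * x = x * y) : x = 1 ∨ x = zT := by
  have ha : x.a = 1 ∨ x.a = z := by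
    apply central_cases
    intro b
    have := congrArg TW.a (hx ⟨b, 0⟩)
    simp only [a_mul, cm_zero_left, cm_zero_right, zeta_zero, mul_one] at this
    exact this.symm
  have hw : x.w = 0 := by
    funext i
    have h1 := congrArg TW.a (hx ⟨1, Pi.single i (1, 0)⟩)
    have h2 := congrArg TW.a (hx ⟨1, Pi.single i (0, 1)⟩)
    simp only [a_mul, one_mul, mul_one, cm_single_left, cm_single_right, cm_single_left',
      cm_single_right'] at h1 h2
    have h1' := zeta_inj _ _ (mul_left_cancel h1)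
    have h2' := zeta_inj _ _ (mul_left_cancel h2)
    exact Prod.ext h2'.symm h1'
  rcases ha with ha | ha
  · left; exact TW.ext ha hw
  · right; exact TW.ext ha hw

theorem center_TW : center (TW m) = zpowers (zT : TW m) := by
  apply le_antisymm
  · intro x hx
    rw [mem_center_iff] at hx
    rcases central_cases_T x hx with h | h
    · rw [h]; exact one_mem _
    · rw [h]; exact mem_zpowers _
  · rw [zpowers_le, mem_center_iff]
    intro y
    exact (zT_central y).symm

theorem card_center_TW : Nat.card (center (TW m)) = 2 := by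
  rw [center_TW, Nat.card_zpowers]
  exact orderOf_eq_prime (by rw [pow_two]; exact zT_sq) zT_ne_one

theorem comm_cases_T (x y : TW m) : x * y = y * x ∨ x * y = zT * (y * x) := by
  have hz : ∀ q : E3, z * q = q * z := z_comm
  rcases comm_cases x.a y.a with h1 | h1 <;>
    rcases zeta_rel (cm x.w y.w) (cm y.w x.w) with h2 | h2
  · left
    apply TW.ext
    · simp only [a_mul, h1, h2]
    · simp only [w_mul, add_comm]
  · right
    apply TW.ext
    · show x.a * y.a * zeta (cm x.w y.w) =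
        z * (y.a * x.a * zeta (cm y.w x.w)) * zeta (cm 0 (y.w + x.w))
      rw [cm_zero_left, zeta_zero, mul_one, h1, h2, ← mul_assoc (y.a * x.a) z,
        ← hz (y.a * x.a), mul_assoc]
    · show x.w + y.w = 0 + (y.w + x.w)
      rw [zero_add, add_comm]
  · right
    apply TW.ext
    · show x.a * y.a * zeta (cm x.w y.w) =
        z * (y.a * x.a * zeta (cm y.w x.w)) * zeta (cm 0 (y.w + x.w))
      rw [cm_zero_left, zeta_zero, mul_one, h1, h2, mul_assoc]
    · show x.w + y.w = 0 + (y.w + x.w)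
      rw [zero_add, add_comm]
  · left
    apply TW.ext
    · show x.a * y.a * zeta (cm x.w y.w) = y.a * x.a * zeta (cm y.w x.w)
      rw [h1, h2, hz (y.a * x.a), mul_assoc (y.a * x.a) z, ← mul_assoc z z, z_mul_z, one_mul]
    · simp only [w_mul, add_comm]

theorem commutator_mem_center_TW (x y : TW m) : ⁅x, y⁆ ∈ center (TW m) := by
  have h : ⁅x, y⁆ = x * y * (y * x)⁻¹ := by
    rw [commutatorElement_def]; group
  rw [h]
  rcases comm_cases_T x y with h1 | h1
  · rw [h1, mul_inv_cancel]; exact one_mem _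
  · rw [h1, mul_inv_cancel_right, center_TW]; exact mem_zpowers _

theorem exists_noncomm_T : ∃ x y : TW m, ⁅x, y⁆ ≠ 1 := by
  obtain ⟨a, b, hab⟩ := exists_noncomm
  refine ⟨⟨a, 0⟩, ⟨b, 0⟩, fun h => hab ?_⟩
  rw [commutatorElement_eq_one_iff_mul_comm] at h
  have := congrArg TW.a h
  simpa only [a_mul, cm_zero_left, zeta_zero, mul_one] using this

theorem isExtraspecial_TW (m : ℕ) : Cfsg.IsExtraspecial 2 (TW m) :=
  haveI : Fact (Nat.Prime 2) := ⟨Nat.prime_two⟩
  Cfsg.Agent.Lib.Helper2.ESL.isExtraspecial_of card_center_TW commutator_mem_center_TW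
    exists_noncomm_T

/-- the elementary abelian subgroup of order `2 ^ (m + 4)`. -/
def AT (m : ℕ) : Subgroup (TW m) where
  carrier := {x | inA x.a ∧ ∀ i, (x.w i).2 = 0}
  mul_mem' := by
    rintro x y ⟨hx, hx'⟩ ⟨hy, hy'⟩
    have hc : cm x.w y.w = 0 := by
      unfold cm
      apply Finset.sum_eq_zero
      intro i _
      rw [hy' i, mul_zero]
    refine ⟨?_, fun i => ?_⟩
    · rw [a_mul, hc, zeta_zero, mul_one]
      exact inA_mul _ _ hx hy
    · rw [w_mul]
      simp [hx' i, hy' i]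
  one_mem' := ⟨inA_one, fun _ => rfl⟩
  inv_mem' := by
    rintro x ⟨hx, hx'⟩
    have hc : cm x.w x.w = 0 := by
      unfold cm
      apply Finset.sum_eq_zero
      intro i _
      rw [hx' i, mul_zero]
    refine ⟨?_, fun i => ?_⟩
    · show inA (x.a⁻¹ * zeta (cm x.w x.w))
      rw [hc, zeta_zero, mul_one, inv_eq_of_mul_eq_one_left (inA_sq _ hx)]
      exact hx
    · show ((-x.w) i).2 = 0
      simp [hx' i]

theorem mem_AT {x : TW m} : x ∈ AT m ↔ inA x.a ∧ ∀ i, (x.w i).2 = 0 := Iff.rfl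

theorem cm_eq_zero_of {w u : WW m} (hu : ∀ i, (u i).2 = 0) : cm w u = 0 := by
  unfold cm
  apply Finset.sum_eq_zero
  intro i _
  rw [hu i, mul_zero]

instance AT_comm : IsMulCommutative (AT m) :=
  IsMulCommutative.of_setLike_mul_comm fun x hx y hy => by
    apply TW.ext
    · rw [a_mul, a_mul, cm_eq_zero_of hy.2, cm_eq_zero_of hx.2, inA_comm _ _ hx.1 hy.1]
    · rw [w_mul, w_mul, add_comm]

theorem AT_sq (x : TW m) (hx : x ∈ AT m) : x ^ 2 = 1 := by
  rw [pow_two]
  apply TW.ext
  · rw [a_mul, cm_eq_zero_of hx.2, zeta_zero, mul_one, inA_sq _ hx.1]; rfl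
  · rw [w_mul]
    funext i
    exact Prod.ext (CharTwo.add_self_eq_zero _) (CharTwo.add_self_eq_zero _)

/-- `AT m` as a product set. -/
def atEquiv (m : ℕ) : AT m ≃ {a : E3 // inA a} × (Fin m → ZMod 2) where
  toFun x := (⟨x.1.a, x.2.1⟩, fun i => (x.1.w i).1)
  invFun p := ⟨⟨p.1.1, fun i => (p.2 i, 0)⟩, ⟨p.1.2, fun _ => rfl⟩⟩
  left_inv x := by
    apply Subtype.ext
    apply TW.ext
    · rfl
    · funext i
      exact Prod.ext rfl (x.2.2 i).symm
  right_inv p := rfl

theorem card_AT (m : ℕ) : Nat.card (AT m) = 2 ^ (m + 4) := by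
  rw [Nat.card_congr (atEquiv m), Nat.card_prod, Nat.card_fun, Nat.card_eq_fintype_card,
    card_inA]
  simp only [Nat.card_eq_fintype_card, ZMod.card, Fintype.card_fin]
  rw [pow_add]
  norm_num [mul_comm]

theorem not_pRankLE_TW (m : ℕ) : ¬ Cfsg.PRankLE 2 (m + 3) (TW m) := by
  intro h
  have := h (AT m) inferInstance AT_sq
  rw [card_AT] at this
  have h2 : 2 ^ (m + 3) < 2 ^ (m + 4) := Nat.pow_lt_pow_right (by norm_num) (by omega)
  omega

/-- extension of an automorphism of `E3` fixing `z`. -/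
def ext (ψ : E3 ≃* E3) (hψ : ∀ t, ψ (zeta t) = zeta t) : TW m ≃* TW m where
  toFun x := ⟨ψ x.a, x.w⟩
  invFun x := ⟨ψ.symm x.a, x.w⟩
  left_inv x := by simp
  right_inv x := by simp
  map_mul' x y := by
    apply TW.ext
    · simp only [a_mul, map_mul, hψ]
    · rfl

/-- extension of `psi1`. -/
def Psi1 (m : ℕ) : MulAut (TW m) := ext psi1 psi1_zeta
/-- extension of `psi2`. -/
def Psi2 (m : ℕ) : MulAut (TW m) := ext psi2 psi2_zeta

theorem Psi1_apply (x : TW m) : Psi1 m x = ⟨psi1 x.a, x.w⟩ := rfl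
theorem Psi2_apply (x : TW m) : Psi2 m x = ⟨psi2 x.a, x.w⟩ := rfl

theorem conj_T (b x : TW m) : (b * x * b⁻¹).w = x.w ∧
    (b * x * b⁻¹).a = b.a * x.a * b.a⁻¹ * zeta (cm b.w x.w + cm x.w b.w) := by
  constructor
  · show b.w + x.w + -b.w = x.w
    abel
  · show b.a * x.a * zeta (cm b.w x.w) * (b.a⁻¹ * zeta (cm b.w b.w)) *
      zeta (cm (b.w + x.w) (-b.w)) = b.a * x.a * b.a⁻¹ * zeta (cm b.w x.w + cm x.w b.w)
    rw [cm_neg_right, zeta_neg, cm_add_left, zeta_add, zeta_add]
    have e1 : zeta (cm b.w x.w) * (b.a⁻¹ * zeta (cm b.w b.w)) =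
        (b.a⁻¹ * zeta (cm b.w b.w)) * zeta (cm b.w x.w) := zeta_comm _ _
    have e2 : zeta (cm b.w x.w) * (zeta (cm b.w b.w) * zeta (cm x.w b.w)) =
        (zeta (cm b.w b.w) * zeta (cm x.w b.w)) * zeta (cm b.w x.w) := zeta_comm _ _
    have e3 : zeta (cm b.w b.w) * zeta (cm x.w b.w) * zeta (cm b.w b.w) =
        zeta (cm x.w b.w) := by
      rw [mul_assoc, ← zeta_comm, ← mul_assoc, zeta_self, one_mul]
    calc b.a * x.a * zeta (cm b.w x.w) * (b.a⁻¹ * zeta (cm b.w b.w)) *
          (zeta (cm b.w b.w) * zeta (cm x.w b.w))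
        = b.a * x.a * b.a⁻¹ * (zeta (cm b.w b.w) * (zeta (cm b.w x.w) *
            (zeta (cm b.w b.w) * zeta (cm x.w b.w)))) := by
          rw [mul_assoc (b.a * x.a), e1]; simp only [mul_assoc]
      _ = b.a * x.a * b.a⁻¹ * (zeta (cm b.w x.w) * zeta (cm x.w b.w)) := by
          rw [e2, ← mul_assoc (zeta (cm b.w b.w)), ← mul_assoc (zeta (cm b.w b.w)),
            mul_assoc (zeta (cm b.w b.w) * zeta (cm b.w b.w)), zeta_self, one_mul,
            ← zeta_comm]

theorem conj_inl (b : TW m) (x : E3) : b * (⟨x, 0⟩ : TW m) * b⁻¹ = ⟨b.a * x * b.a⁻¹, 0⟩ := by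
  obtain ⟨h1, h2⟩ := conj_T b ⟨x, 0⟩
  apply TW.ext
  · rw [h2]
    simp only [cm_zero_left, cm_zero_right, add_zero, zeta_zero, mul_one]
  · rw [h1]

theorem Psi1_sq : Psi1 m * Psi1 m = 1 := by
  apply MulEquiv.ext
  intro x
  apply TW.ext
  · simp only [MulAut.mul_apply, MulAut.one_apply, Psi1_apply, psi1_psi1]
  · rfl

theorem Psi2_sq : Psi2 m * Psi2 m = 1 := by
  apply MulEquiv.ext
  intro x
  apply TW.ext
  · simp only [MulAut.mul_apply, MulAut.one_apply, Psi2_apply, psi2_psi2]
  · rfl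

theorem Psi_comm : Psi1 m * Psi2 m * Psi1 m * Psi2 m = MulAut.conj (⟨sE, 0⟩ : TW m) := by
  apply MulEquiv.ext
  intro x
  apply TW.ext
  · simp only [MulAut.mul_apply, MulAut.conj_apply, Psi1_apply, Psi2_apply, psi_comm]
    rw [(conj_T (⟨sE, 0⟩ : TW m) x).2]
    simp only [cm_zero_left, cm_zero_right, add_zero, zeta_zero, mul_one]
  · simp only [MulAut.mul_apply, MulAut.conj_apply, Psi1_apply, Psi2_apply]
    rw [(conj_T (⟨sE, 0⟩ : TW m) x).1]

/-- No inner adjustments of `Psi1`, `Psi2` are commuting involutions. -/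
theorem no_lift (b1 b2 : TW m)
    (h1 : (Psi1 m * MulAut.conj b1) * (Psi1 m * MulAut.conj b1) = 1)
    (h2 : (Psi2 m * MulAut.conj b2) * (Psi2 m * MulAut.conj b2) = 1)
    (h3 : (Psi1 m * MulAut.conj b1) * (Psi2 m * MulAut.conj b2) =
      (Psi2 m * MulAut.conj b2) * (Psi1 m * MulAut.conj b1)) : False := by
  refine cert' b1.a b2.a (fun x => ?_) (fun x => ?_) (fun x => ?_)
  · have := congrArg TW.a (DFunLike.congr_fun h1 (⟨x, 0⟩ : TW m))
    simpa only [MulAut.mul_apply, MulAut.conj_apply, MulAut.one_apply, conj_inl,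
      Psi1_apply] using this
  · have := congrArg TW.a (DFunLike.congr_fun h2 (⟨x, 0⟩ : TW m))
    simpa only [MulAut.mul_apply, MulAut.conj_apply, MulAut.one_apply, conj_inl,
      Psi2_apply] using this
  · have := congrArg TW.a (DFunLike.congr_fun h3 (⟨x, 0⟩ : TW m))
    simpa only [MulAut.mul_apply, MulAut.conj_apply, MulAut.one_apply, conj_inl,
      Psi1_apply, Psi2_apply] using this

end Cfsg.Agent.Lib.Helper6.ES3
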