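import Mathlib
import Cfsg.Agent.Lib.Helper6.TransvGenM

set_option autoImplicit false

/-! # The stabiliser of a vector in `SL(n + 2, 2)` as a holomorph: matrix side -/

namespace Cfsg.Agent.Lib.Helper6.TG

open Matrix

variable {n : ℕ}

/-! ### the case `n = 1` -/

theorem subsingleton_SL1 : Subsingleton (SLn 1) := by
  constructor
  intro a b
  apply Subtype.ext
  have ha := a.2
  have hb := b.2
  rw [Matrix.det_fin_one] at ha hb
  ext i j
  have hi : i = 0 := Subsingleton.elim _ _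
  have hj : j = 0 := Subsingleton.elim _ _
  rw [hi, hj, ha, hb]

/-- a normal `2`-subgroup of `SL(n, 2)`, `n ≥ 1`, is trivial -/
theorem normal_two_subgroup_SL' (hn : 1 ≤ n) (P : Subgroup (SLn n)) [hPn : P.Normal]
    (hP : IsPGroup 2 P) : P = ⊥ := by
  rcases Nat.lt_or_ge n 2 with h | h
  · obtain rfl : n = 1 := by omega
    have := subsingleton_SL1
    rw [eq_bot_iff]
    intro x _
    rw [Subgroup.mem_bot]
    exact Subsingleton.elim x 1
  · exact normal_two_subgroup_SL h P hP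

variable {s : SLN n}

/-- the kernel is the `2`-core -/
theorem pCore_eq_QD' (hn : 1 ≤ n) (hs : (s : MatN n) = TT n) :
    Cfsg.pCore 2 ↥(Dg s) = QD hs := by
  have : Fact (Nat.Prime 2) := ⟨Nat.prime_two⟩
  apply le_antisymm
  · have hP : IsPGroup 2 ↥(Cfsg.pCore 2 ↥(Dg s)) := Cfsg.Agent.Lib.Helper90.pCore_isPGroup 2
    have hN : (Cfsg.pCore 2 ↥(Dg s)).Normal := Subgroup.sSup_normal _ (fun _ hN => hN.1)
    have hN' : ((Cfsg.pCore 2 ↥(Dg s)).map (blkSL hs)).Normal :=
      hN.map _ (blkSL_surjective hs)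
    have h2 : IsPGroup 2 ↥((Cfsg.pCore 2 ↥(Dg s)).map (blkSL hs)) := hP.map _
    have h3 := normal_two_subgroup_SL' hn _ h2
    exact (Subgroup.map_eq_bot_iff _).1 h3
  · refine le_sSup ⟨?_, IsPGroup.of_card (card_QD hs)⟩
    unfold QD
    infer_instance

theorem cenData_Dg' (hn : 1 ≤ n) (hs : (s : MatN n) = TT n) :
    CenData ↥(Dg s) (sc s) (QD hs) (2 ^ (2 * n + 1)) (SLn n) where
  core := pCore_eq_QD' hn hs
  extra := extraspecial_QD hn hs
  card := card_QD hs
  zmem := sc_mem_QD hs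
  zne := sc_ne_one hs
  cent := cent_QD hs
  compl := ⟨(kap hs).range, QD_inf_range hs, QD_sup_range hs,
    ⟨(MonoidHom.ofInjective (kap_injective hs)).symm⟩⟩

/-- over the field with two elements, `SL = GL` -/
noncomputable def slEquivGL (k : ℕ) :
    Matrix.SpecialLinearGroup (Fin k) (ZMod 2) ≃* GL (Fin k) (ZMod 2) :=
  MulEquiv.ofBijective (Matrix.SpecialLinearGroup.toGL)
    ⟨Matrix.SpecialLinearGroup.toGL_injective, fun A => by
      have hdet : (A : Matrix (Fin k) (Fin k) (ZMod 2)).det = 1 := by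
        have h1 : (A : Matrix (Fin k) (Fin k) (ZMod 2)).det *
            ((A⁻¹ : GL (Fin k) (ZMod 2)) : Matrix (Fin k) (Fin k) (ZMod 2)).det = 1 := by
          rw [← Matrix.det_mul, ← Matrix.GeneralLinearGroup.coe_mul, mul_inv_cancel]
          simp
        rcases z2_cases (A : Matrix (Fin k) (Fin k) (ZMod 2)).det with h | h
        · rw [h, zero_mul] at h1
          exact absurd h1 (by decide)
        · exact h
      refine ⟨⟨(A : Matrix (Fin k) (Fin k) (ZMod 2)), hdet⟩, ?_⟩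
      apply Units.ext
      rfl⟩

/-! ### block matrices -/

/-- the block-diagonal matrix `1 ⊕ A` -/
def bd (A : Matrix (Fin (n + 1)) (Fin (n + 1)) (ZMod 2)) : MatN n :=
  Matrix.of (Fin.cons (α := fun _ => Fin (n + 2) → ZMod 2) (Fin.cons 1 0)
    (fun i => Fin.cons 0 (A i)))

theorem bd_00 (A : Matrix (Fin (n + 1)) (Fin (n + 1)) (ZMod 2)) : bd A 0 0 = 1 := rfl

theorem bd_0s (A : Matrix (Fin (n + 1)) (Fin (n + 1)) (ZMod 2)) (j : Fin (n + 1)) :
    bd A 0 j.succ = 0 := rfl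

theorem bd_s0 (A : Matrix (Fin (n + 1)) (Fin (n + 1)) (ZMod 2)) (i : Fin (n + 1)) :
    bd A i.succ 0 = 0 := rfl

theorem bd_ss (A : Matrix (Fin (n + 1)) (Fin (n + 1)) (ZMod 2)) (i j : Fin (n + 1)) :
    bd A i.succ j.succ = A i j := rfl

theorem bd_mul (A B : Matrix (Fin (n + 1)) (Fin (n + 1)) (ZMod 2)) :
    bd A * bd B = bd (A * B) := by
  ext i j
  rw [Matrix.mul_apply, Fin.sum_univ_succ]
  refine Fin.cases ?_ (fun i' => ?_) i
  · refine Fin.cases ?_ (fun j' => ?_) j
    · rw [bd_00, bd_00, bd_00, one_mul, Finset.sum_eq_zero, add_zero]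
      intro k _
      rw [bd_0s, zero_mul]
    · rw [bd_0s, bd_0s, mul_zero, Finset.sum_eq_zero, add_zero]
      intro k _
      rw [bd_0s, zero_mul]
  · refine Fin.cases ?_ (fun j' => ?_) j
    · rw [bd_s0, bd_s0, zero_mul, Finset.sum_eq_zero, add_zero]
      intro k _
      rw [bd_s0, mul_zero]
    · rw [bd_s0, zero_mul, zero_add, bd_ss, Matrix.mul_apply]
      rfl

theorem bd_one : bd (1 : Matrix (Fin (n + 1)) (Fin (n + 1)) (ZMod 2)) = 1 := by
  ext i j
  refine Fin.cases ?_ (fun i' => ?_) i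
  · refine Fin.cases ?_ (fun j' => ?_) j
    · rw [bd_00, Matrix.one_apply_eq]
    · rw [bd_0s, Matrix.one_apply_ne (Fin.succ_ne_zero j').symm]
  · refine Fin.cases ?_ (fun j' => ?_) j
    · rw [bd_s0, Matrix.one_apply_ne (Fin.succ_ne_zero i')]
    · rw [bd_ss, Matrix.one_apply, Matrix.one_apply]
      by_cases h : i' = j'
      · rw [if_pos h, if_pos (by rw [h])]
      · rw [if_neg h, if_neg (fun e => h (Fin.succ_injective _ e))]

theorem bd_mulVec_e0 (A : Matrix (Fin (n + 1)) (Fin (n + 1)) (ZMod 2)) : bd A *ᵥ e0 = e0 := by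
  unfold e0
  rw [Matrix.mulVec_single_one]
  funext i
  refine Fin.cases ?_ (fun i' => ?_) i
  · show bd A 0 0 = _
    rw [bd_00, Pi.single_eq_same]
  · show bd A i'.succ 0 = _
    rw [bd_s0, Pi.single_eq_of_ne (Fin.succ_ne_zero i')]

theorem cons_vecMul_bd (ρ : Fin (n + 1) → ZMod 2)
    (A : Matrix (Fin (n + 1)) (Fin (n + 1)) (ZMod 2)) :
    (Fin.cons 0 ρ : Fin (n + 2) → ZMod 2) ᵥ* bd A = Fin.cons 0 (ρ ᵥ* A) := by
  funext j
  simp only [Matrix.vecMul, dotProduct]
  rw [Fin.sum_univ_succ]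
  refine Fin.cases ?_ (fun j' => ?_) j
  · rw [Fin.cons_zero, Fin.cons_zero, zero_mul, zero_add, Finset.sum_eq_zero]
    intro k _
    rw [bd_s0, mul_zero]
  · rw [Fin.cons_zero, zero_mul, zero_add, Fin.cons_succ]
    rfl

theorem det_eq_one_of_mul_eq_one {A B : MatN n} (h : A * B = 1) : A.det = 1 := by
  have h1 := congrArg Matrix.det h
  rw [Matrix.det_mul, Matrix.det_one] at h1
  rcases z2_cases A.det with h2 | h2
  · rw [h2, zero_mul] at h1
    exact absurd h1 (by decide)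
  · exact h2

/-- the lower right block of size `n + 1` -/
def blk1 (g : MatN n) : Matrix (Fin (n + 1)) (Fin (n + 1)) (ZMod 2) :=
  g.submatrix Fin.succ Fin.succ

theorem blk1_bd (A : Matrix (Fin (n + 1)) (Fin (n + 1)) (ZMod 2)) : blk1 (bd A) = A := rfl

theorem blk1_mul {g h : MatN n} (hg : ∀ i, i ≠ 0 → g i 0 = 0) :
    blk1 (g * h) = blk1 g * blk1 h := by
  ext i j
  show (g * h) i.succ j.succ = _
  rw [Matrix.mul_apply, Fin.sum_univ_succ, hg _ (Fin.succ_ne_zero i), zero_mul, zero_add,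
    Matrix.mul_apply]
  rfl

theorem blk1_one : blk1 (1 : MatN n) = 1 :=
  Matrix.submatrix_one Fin.succ (Fin.succ_injective _)

/-- a matrix fixing `e₀` with trivial block is a transvection with centre `e₀` -/
theorem eq_rowMat_of {g : MatN n} (h0 : ∀ i, i ≠ 0 → g i 0 = 0) (h00 : g 0 0 = 1)
    (hb : blk1 g = 1) : g = rowMat (Fin.cons 0 (fun j => g 0 j.succ)) := by
  ext i j
  refine Fin.cases ?_ (fun i' => ?_) i
  · refine Fin.cases ?_ (fun j' => ?_) j
    · unfold rowMat e0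
      rw [h00, Matrix.add_apply, Matrix.vecMulVec_apply, Matrix.one_apply_eq, Fin.cons_zero,
        mul_zero, add_zero]
    · rw [rowMat_apply_zero_succ, Fin.cons_succ]
  · refine Fin.cases ?_ (fun j' => ?_) j
    · unfold rowMat e0
      rw [h0 _ (Fin.succ_ne_zero i'), Matrix.add_apply, Matrix.vecMulVec_apply,
        Matrix.one_apply_ne (Fin.succ_ne_zero i'), Fin.cons_zero, mul_zero, add_zero]
    · have h1 : g i'.succ j'.succ = (1 : Matrix (Fin (n + 1)) (Fin (n + 1)) (ZMod 2)) i' j' :=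
        congrFun (congrFun hb i') j'
      unfold rowMat e0
      rw [h1, Matrix.add_apply, Matrix.vecMulVec_apply, Pi.single_eq_of_ne (Fin.succ_ne_zero i'),
        zero_mul, add_zero, Matrix.one_apply, Matrix.one_apply]
      by_cases h : i' = j'
      · rw [if_pos h, if_pos (by rw [h])]
      · rw [if_neg h, if_neg (fun e => h (Fin.succ_injective _ e))]

/-- the transvection with centre `e₀` and row `ρ`, as an element of `SL` -/
def rowS (ρ : Fin (n + 1) → ZMod 2) : SLN n :=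
  ⟨rowMat (Fin.cons 0 ρ), det_rowMat _ rfl⟩

theorem cons_add (ρ ρ' : Fin (n + 1) → ZMod 2) :
    (Fin.cons 0 (ρ + ρ') : Fin (n + 2) → ZMod 2) = Fin.cons 0 ρ + Fin.cons 0 ρ' := by
  funext j
  refine Fin.cases ?_ (fun j' => ?_) j
  · rw [Pi.add_apply, Fin.cons_zero, Fin.cons_zero, Fin.cons_zero, add_zero]
  · rw [Pi.add_apply, Fin.cons_succ, Fin.cons_succ, Fin.cons_succ, Pi.add_apply]

theorem cons_zero' : (Fin.cons 0 (0 : Fin (n + 1) → ZMod 2) : Fin (n + 2) → ZMod 2) = 0 := by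
  funext j
  refine Fin.cases ?_ (fun j' => ?_) j
  · rw [Fin.cons_zero]; rfl
  · rw [Fin.cons_succ]; rfl

/-- the translations, as a homomorphism -/
def rowHom : Multiplicative (Fin (n + 1) → ZMod 2) →* SLN n where
  toFun v := rowS (Multiplicative.toAdd v)
  map_one' := by
    apply Subtype.ext
    show rowMat (Fin.cons 0 (0 : Fin (n + 1) → ZMod 2)) = 1
    rw [cons_zero', rowMat_zero]
  map_mul' a b := by
    apply Subtype.ext
    show rowMat (Fin.cons 0 (Multiplicative.toAdd a + Multiplicative.toAdd b)) =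
      rowMat (Fin.cons 0 (Multiplicative.toAdd a)) * rowMat (Fin.cons 0 (Multiplicative.toAdd b))
    rw [cons_add, rowMat_mul _ _ (Fin.cons_zero _ _)]

theorem rowHom_injective : Function.Injective (rowHom (n := n)) := by
  intro a b h
  have h1 : rowMat (Fin.cons 0 (Multiplicative.toAdd a)) =
      rowMat (Fin.cons 0 (Multiplicative.toAdd b)) := congrArg Subtype.val h
  have h2 : Multiplicative.toAdd a = Multiplicative.toAdd b := by
    funext j
    have h3 := congrFun (congrFun h1 0) j.succ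
    rw [rowMat_apply_zero_succ, rowMat_apply_zero_succ, Fin.cons_succ, Fin.cons_succ] at h3
    exact h3
  exact Multiplicative.toAdd.injective h2

/-- the block-diagonal embedding of `GL(n + 1, 2)` -/
def bdHom : GL (Fin (n + 1)) (ZMod 2) →* SLN n where
  toFun A := ⟨bd (A : Matrix (Fin (n + 1)) (Fin (n + 1)) (ZMod 2)),
    det_eq_one_of_mul_eq_one (B := bd ((A⁻¹ : GL (Fin (n + 1)) (ZMod 2)) :
      Matrix (Fin (n + 1)) (Fin (n + 1)) (ZMod 2))) (by
        rw [bd_mul, ← Matrix.GeneralLinearGroup.coe_mul, mul_inv_cancel]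
        exact bd_one)⟩
  map_one' := by
    apply Subtype.ext
    exact bd_one
  map_mul' a b := by
    apply Subtype.ext
    show bd ((a * b : GL (Fin (n + 1)) (ZMod 2)) : Matrix (Fin (n + 1)) (Fin (n + 1)) (ZMod 2)) =
      bd (a : Matrix (Fin (n + 1)) (Fin (n + 1)) (ZMod 2)) *
        bd (b : Matrix (Fin (n + 1)) (Fin (n + 1)) (ZMod 2))
    rw [bd_mul]
    rfl

theorem bdHom_coe (A : GL (Fin (n + 1)) (ZMod 2)) :
    ((bdHom A : SLN n) : MatN n) = bd (A : Matrix (Fin (n + 1)) (Fin (n + 1)) (ZMod 2)) := rfl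

theorem bdHom_injective : Function.Injective (bdHom (n := n)) := by
  intro a b h
  apply Units.ext
  have h1 : bd (a : Matrix (Fin (n + 1)) (Fin (n + 1)) (ZMod 2)) =
      bd (b : Matrix (Fin (n + 1)) (Fin (n + 1)) (ZMod 2)) := congrArg Subtype.val h
  have h2 := congrArg blk1 h1
  rwa [blk1_bd, blk1_bd] at h2

/-- conjugating a translation by a block-diagonal matrix -/
theorem bdHom_conj (A : GL (Fin (n + 1)) (ZMod 2)) (v : Multiplicative (Fin (n + 1) → ZMod 2)) :
    bdHom A * rowHom v * (bdHom A)⁻¹ = rowHom (Multiplicative.ofAdd (Multiplicative.toAdd v ᵥ*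
      ((A⁻¹ : GL (Fin (n + 1)) (ZMod 2)) : Matrix (Fin (n + 1)) (Fin (n + 1)) (ZMod 2)))) := by
  rw [← map_inv]
  apply Subtype.ext
  show bd (A : Matrix (Fin (n + 1)) (Fin (n + 1)) (ZMod 2)) *
      rowMat (Fin.cons 0 (Multiplicative.toAdd v)) *
      bd ((A⁻¹ : GL (Fin (n + 1)) (ZMod 2)) : Matrix (Fin (n + 1)) (Fin (n + 1)) (ZMod 2)) =
    rowMat (Fin.cons 0 (Multiplicative.toAdd v ᵥ*
      ((A⁻¹ : GL (Fin (n + 1)) (ZMod 2)) : Matrix (Fin (n + 1)) (Fin (n + 1)) (ZMod 2))))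
  unfold rowMat
  rw [Matrix.mul_add, Matrix.add_mul, Matrix.mul_one, bd_mul, ← Matrix.GeneralLinearGroup.coe_mul,
    mul_inv_cancel, Matrix.mul_vecMulVec, bd_mulVec_e0, Matrix.vecMulVec_mul, cons_vecMul_bd]
  congr 1
  exact bd_one

end Cfsg.Agent.Lib.Helper6.TG
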