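import Mathlib
import Cfsg.Agent.Lib.Helper6.HoloMat
import Cfsg.Agent.Lib.Helper68.AutOrbitLin

set_option autoImplicit false

/-! # Embedding the holomorph of an elementary abelian `2`-group into `SL(n + 2, 2)` -/

namespace Cfsg.Agent.Lib.Helper6.TG

open Matrix

variable {n : ℕ}

/-- coordinates on an elementary abelian `2`-group sending a given non-identity element to the
first basis vector -/
theorem exists_coords {A : Type*} [Group A] [Finite A] (k : ℕ) (hc : ∀ a b : A, a * b = b * a)
    (h2 : ∀ a : A, a * a = 1) (hcard : Nat.card A = 2 ^ (k + 1)) (z : A) (hz : z ≠ 1) :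
    ∃ θ : A ≃* Multiplicative (Fin (k + 1) → ZMod 2),
      θ z = Multiplicative.ofAdd (Pi.single 0 1) := by
  let _ : CommGroup A := { ‹Group A› with mul_comm := hc }
  let _ : Module (ZMod 2) (Additive A) := AddCommGroup.zmodModule (n := 2) (fun x => by
    rw [two_nsmul]; exact congrArg Additive.ofMul (h2 (Additive.toMul x)))
  have : Finite (Additive A) := ‹Finite A›
  have : Module.Finite (ZMod 2) (Additive A) := Module.Finite.of_finite
  have hfr : Module.finrank (ZMod 2) (Additive A) = k + 1 := by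
    have h1 := Module.natCard_eq_pow_finrank (K := ZMod 2) (V := Additive A)
    have h2' : Nat.card (Additive A) = 2 ^ (k + 1) := hcard
    rw [h2', Nat.card_zmod] at h1
    exact (Nat.pow_right_injective (le_refl 2) h1).symm
  let b : Module.Basis (Fin (k + 1)) (ZMod 2) (Additive A) :=
    Module.finBasisOfFinrankEq _ _ hfr
  have hz' : Additive.ofMul z ≠ 0 := fun h => hz (congrArg Additive.toMul h)
  obtain ⟨e, he⟩ := Cfsg.Agent.Lib.Helper68.AutOrbit.exists_linearEquiv_apply_eq (K := ZMod 2)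
    (b 0) (Additive.ofMul z) (b.ne_zero 0) hz'
  let b' : Module.Basis (Fin (k + 1)) (ZMod 2) (Additive A) := b.map e
  let β : Additive A ≃+ (Fin (k + 1) → ZMod 2) := b'.equivFun.toAddEquiv
  refine ⟨AddEquiv.toMultiplicativeRight β, ?_⟩
  show Multiplicative.ofAdd (β (Additive.ofMul z)) = _
  congr 1
  rw [← he]
  funext j
  have h3 : b' 0 = e (b 0) := b.map_apply e 0
  show b'.equivFun (e (b 0)) j = _
  rw [← h3, Module.Basis.equivFun_self, Pi.single_apply]
  by_cases h : j = 0
  · rw [if_pos h, if_pos h.symm]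
  · rw [if_neg h, if_neg (fun e' => h e'.symm)]

theorem mat_ext_mulVec {k : ℕ} {A B : Matrix (Fin k) (Fin k) (ZMod 2)}
    (h : ∀ v, A *ᵥ v = B *ᵥ v) : A = B :=
  Matrix.toLin'.injective (LinearMap.ext (fun v => by
    rw [Matrix.toLin'_apply, Matrix.toLin'_apply, h]))

section emb

variable {G : Type*} [Group G] {U : Subgroup G} [hUn : U.Normal]
  (θ : ↥U ≃* Multiplicative (Fin (n + 1) → ZMod 2))

/-- the matrix of conjugation by `g` on `U`, in the coordinates `θ` -/
noncomputable def Lmat (g : G) : Matrix (Fin (n + 1)) (Fin (n + 1)) (ZMod 2) :=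
  LinearMap.toMatrix' ((AddMonoidHom.toMultiplicative.symm
    (θ.symm.trans ((MulAut.conjNormal g : MulAut ↥U).trans θ)).toMonoidHom).toZModLinearMap 2)

theorem Lmat_mulVec (g : G) (v : Fin (n + 1) → ZMod 2) :
    Lmat θ g *ᵥ v = Multiplicative.toAdd (θ ((MulAut.conjNormal g : MulAut ↥U)
      (θ.symm (Multiplicative.ofAdd v)))) := by
  unfold Lmat
  rw [← Matrix.toLin'_apply, Matrix.toLin'_toMatrix']
  rfl

theorem Lmat_one : Lmat θ (1 : G) = 1 := by
  apply mat_ext_mulVec
  intro v
  rw [Lmat_mulVec, map_one, MulAut.one_apply, MulEquiv.apply_symm_apply, toAdd_ofAdd,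
    Matrix.one_mulVec]

theorem Lmat_mul (g h : G) : Lmat θ (g * h) = Lmat θ g * Lmat θ h := by
  apply mat_ext_mulVec
  intro v
  rw [← Matrix.mulVec_mulVec, Lmat_mulVec, Lmat_mulVec, Lmat_mulVec, map_mul, MulAut.mul_apply,
    ofAdd_toAdd, MulEquiv.symm_apply_apply]

/-- the inverse transpose of the matrix of conjugation, as a homomorphism to `GL` -/
noncomputable def AGL : G →* GL (Fin (n + 1)) (ZMod 2) :=
  MonoidHom.toHomUnits
    { toFun := fun g => (Lmat θ g⁻¹)ᵀ
      map_one' := by rw [inv_one, Lmat_one, Matrix.transpose_one]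
      map_mul' := fun g h => by rw [_root_.mul_inv_rev, Lmat_mul, Matrix.transpose_mul] }

theorem AGL_coe (g : G) :
    ((AGL θ g : GL (Fin (n + 1)) (ZMod 2)) : Matrix (Fin (n + 1)) (Fin (n + 1)) (ZMod 2)) =
      (Lmat θ g⁻¹)ᵀ := rfl

/-- the translation part -/
noncomputable def fU : ↥U →* SLN n := rowHom.comp θ.toMonoidHom

/-- the linear part -/
noncomputable def fG : G →* SLN n := bdHom.comp (AGL θ)

omit hUn in
theorem fU_injective : Function.Injective (fU θ) := by
  intro a b h
  exact θ.injective (rowHom_injective h)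

/-- the compatibility of the two parts -/
theorem fG_conj (g : G) (u : ↥U) :
    fG θ g * fU θ u * (fG θ g)⁻¹ = fU θ ((MulAut.conjNormal g : MulAut ↥U) u) := by
  show bdHom (AGL θ g) * rowHom (θ u) * (bdHom (AGL θ g))⁻¹ = rowHom (θ _)
  rw [bdHom_conj, ← map_inv, AGL_coe, inv_inv, Matrix.vecMul_transpose, Lmat_mulVec]
  simp only [ofAdd_toAdd, MulEquiv.symm_apply_apply]

end emb

end Cfsg.Agent.Lib.Helper6.TG
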