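import Mathlib
import Cfsg.Agent.Lib.Helper6.HoloEmb

set_option autoImplicit false

/-! # The holomorph of an elementary abelian `2`-group inside `SL(n + 2, 2)` -/

namespace Cfsg.Agent.Lib.Helper6.TG

open Matrix

variable {n : ℕ}

theorem blk1_rowMat (ρ : Fin (n + 2) → ZMod 2) : blk1 (rowMat ρ) = 1 := by
  ext i j
  show rowMat ρ i.succ j.succ = _
  unfold rowMat e0
  rw [Matrix.add_apply, Matrix.vecMulVec_apply, Pi.single_eq_of_ne (Fin.succ_ne_zero i),
    zero_mul, add_zero, Matrix.one_apply, Matrix.one_apply]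
  by_cases h : i = j
  · rw [if_pos h, if_pos (by rw [h])]
  · rw [if_neg h, if_neg (fun e => h (Fin.succ_injective _ e))]

theorem rowMat_col0 (ρ : Fin (n + 2) → ZMod 2) (h : ρ 0 = 0) (i : Fin (n + 2)) (hi : i ≠ 0) :
    rowMat ρ i 0 = 0 := by
  unfold rowMat e0
  rw [Matrix.add_apply, Matrix.vecMulVec_apply, h, mul_zero, add_zero, Matrix.one_apply_ne hi]

theorem mul_bd_col0 (g : MatN n) (A : Matrix (Fin (n + 1)) (Fin (n + 1)) (ZMod 2))
    (i : Fin (n + 2)) : (g * bd A) i 0 = g i 0 := by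
  rw [Matrix.mul_apply, Fin.sum_univ_succ, bd_00, mul_one, Finset.sum_eq_zero, add_zero]
  intro k _
  rw [bd_s0, mul_zero]

theorem rowMat_cons_single :
    rowMat (Fin.cons 0 (Pi.single 0 1) : Fin (n + 2) → ZMod 2) = TT n := by
  have h : (Fin.cons 0 (Pi.single 0 1) : Fin (n + 2) → ZMod 2) = Pi.single i1 1 := by
    funext j
    refine Fin.cases ?_ (fun j' => ?_) j
    · rw [Fin.cons_zero, Pi.single_eq_of_ne i1_ne_zero.symm]
    · rw [Fin.cons_succ, Pi.single_apply, Pi.single_apply]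
      by_cases hj : j' = 0
      · rw [if_pos hj, if_pos (by rw [hj]; rfl)]
      · rw [if_neg hj, if_neg (fun e : j'.succ = i1 => hj (Fin.succ_injective _ e))]
  rw [h]
  show 1 + Matrix.vecMulVec (Pi.single 0 1) (Pi.single i1 1) =
    (1 : MatN n) + Matrix.single 0 i1 1
  rw [Matrix.single_eq_single_vecMulVec_single]

/-- the automorphism with a given matrix -/
def autOfMat {A : Type*} [Group A] {k : ℕ} (θ : A ≃* Multiplicative (Fin k → ZMod 2))
    (B B' : Matrix (Fin k) (Fin k) (ZMod 2)) (h1 : B * B' = 1) (h2 : B' * B = 1) : A ≃* A where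
  toFun u := θ.symm (Multiplicative.ofAdd (B *ᵥ Multiplicative.toAdd (θ u)))
  invFun u := θ.symm (Multiplicative.ofAdd (B' *ᵥ Multiplicative.toAdd (θ u)))
  left_inv u := by
    simp only [MulEquiv.apply_symm_apply, toAdd_ofAdd, Matrix.mulVec_mulVec, h2,
      Matrix.one_mulVec, ofAdd_toAdd, MulEquiv.symm_apply_apply]
  right_inv u := by
    simp only [MulEquiv.apply_symm_apply, toAdd_ofAdd, Matrix.mulVec_mulVec, h1,
      Matrix.one_mulVec, ofAdd_toAdd, MulEquiv.symm_apply_apply]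
  map_mul' a b := by
    rw [map_mul, toAdd_mul, Matrix.mulVec_add, ofAdd_add, map_mul]

theorem autOfMat_apply {A : Type*} [Group A] {k : ℕ}
    (θ : A ≃* Multiplicative (Fin k → ZMod 2))
    (B B' : Matrix (Fin k) (Fin k) (ZMod 2)) (h1 : B * B' = 1) (h2 : B' * B = 1) (u : A) :
    autOfMat θ B B' h1 h2 u = θ.symm (Multiplicative.ofAdd (B *ᵥ Multiplicative.toAdd (θ u))) :=
  rfl

section psi

variable {G : Type*} [Group G] {U M : Subgroup G} [hUn : U.Normal]
  (θ : ↥U ≃* Multiplicative (Fin (n + 1) → ZMod 2)) (hc : U.IsComplement' M)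

/-- the embedding of the split extension -/
noncomputable def Psi : G →* SLN n :=
  (SemidirectProduct.lift (fU θ) ((fG θ).comp M.subtype) (by
    intro m
    apply MonoidHom.ext
    intro u
    show fU θ _ = fG θ (m : G) * fU θ u * (fG θ (m : G))⁻¹
    rw [fG_conj]
    rfl)).comp (SemidirectProduct.mulEquivSubgroup hc).symm.toMonoidHom

theorem Psi_mul (u : ↥U) (m : ↥M) :
    Psi θ hc ((u : G) * (m : G)) = fU θ u * fG θ (m : G) := by
  have h1 : (SemidirectProduct.mulEquivSubgroup hc).symm ((u : G) * (m : G)) = ⟨u, m⟩ := by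
    rw [MulEquiv.symm_apply_eq]
    rfl
  unfold Psi
  rw [MonoidHom.comp_apply, MulEquiv.coe_toMonoidHom, h1]
  rfl

theorem Psi_coe (u : ↥U) : Psi θ hc (u : G) = fU θ u := by
  have h := Psi_mul θ hc u 1
  rwa [Subgroup.coe_one, mul_one, map_one, mul_one] at h

theorem Psi_injective
    (hfaith : ∀ m ∈ M, (∀ u ∈ U, m * u * m⁻¹ = u) → m = 1) :
    Function.Injective (Psi θ hc) := by
  rw [injective_iff_map_eq_one]
  intro g hg
  obtain ⟨⟨u, m⟩, rfl⟩ := hc.2 g
  have hg' : fU θ u * fG θ (m : G) = 1 := by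
    rw [← Psi_mul θ hc]; exact hg
  have h1 : blk1 (((fU θ u : SLN n) : MatN n) * ((fG θ (m : G) : SLN n) : MatN n)) =
      blk1 (1 : MatN n) := congrArg (fun x : SLN n => blk1 (x : MatN n)) hg'
  have hfU : ((fU θ u : SLN n) : MatN n) = rowMat (Fin.cons 0 (Multiplicative.toAdd (θ u))) := rfl
  have hfG : ((fG θ (m : G) : SLN n) : MatN n) =
      bd ((AGL θ (m : G) : GL (Fin (n + 1)) (ZMod 2)) :
        Matrix (Fin (n + 1)) (Fin (n + 1)) (ZMod 2)) := rfl
  rw [blk1_mul (by rw [hfU]; exact rowMat_col0 _ (Fin.cons_zero _ _)), hfU, blk1_rowMat,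
    Matrix.one_mul, hfG, blk1_bd, blk1_one] at h1
  have hA : AGL θ (m : G) = 1 := Units.ext h1
  have hG1 : fG θ (m : G) = 1 := by
    show bdHom (AGL θ (m : G)) = 1
    rw [hA, map_one]
  rw [hG1, mul_one] at hg'
  have hu : u = 1 := fU_injective θ (by rw [hg', map_one])
  have hL : Lmat θ (m : G)⁻¹ = 1 := by
    have h2 : (Lmat θ (m : G)⁻¹)ᵀ = 1 := by rw [← AGL_coe, hA]; rfl
    have h3 := congrArg Matrix.transpose h2
    rwa [Matrix.transpose_transpose, Matrix.transpose_one] at h3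
  have hm : (m : G)⁻¹ = 1 := by
    apply hfaith _ (M.inv_mem m.2)
    intro x hx
    have h4 := Lmat_mulVec θ (m : G)⁻¹ (Multiplicative.toAdd (θ ⟨x, hx⟩))
    rw [hL, Matrix.one_mulVec, ofAdd_toAdd, MulEquiv.symm_apply_apply] at h4
    have h5 : θ ⟨x, hx⟩ = θ ((MulAut.conjNormal (m : G)⁻¹ : MulAut ↥U) ⟨x, hx⟩) :=
      Multiplicative.toAdd.injective h4
    have h6 := congrArg Subtype.val (θ.injective h5)
    rw [MulAut.conjNormal_apply] at h6
    exact h6.symm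
  have hm' : (m : G) = 1 := inv_eq_one.1 hm
  show (u : G) * (m : G) = 1
  rw [hu, hm', Subgroup.coe_one, mul_one]

theorem Psi_z {z : G} (hz : z ∈ U)
    (hθ : θ ⟨z, hz⟩ = Multiplicative.ofAdd (Pi.single 0 1)) :
    ((Psi θ hc z : SLN n) : MatN n) = TT n := by
  have h := Psi_coe θ hc ⟨z, hz⟩
  have h' : Psi θ hc z = fU θ ⟨z, hz⟩ := h
  rw [h']
  show rowMat (Fin.cons 0 (Multiplicative.toAdd (θ ⟨z, hz⟩))) = TT n
  rw [hθ, toAdd_ofAdd, rowMat_cons_single]

theorem Psi_range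
    (hfull : ∀ φ : ↥U ≃* ↥U, ∃ m ∈ M, ∀ u : ↥U, ((φ u : ↥U) : G) = m * u * m⁻¹)
    {s : SLN n} (hs : (s : MatN n) = TT n) (h : SLN n) (hh : h ∈ Dg s) :
    h ∈ (Psi θ hc).range := by
  have hsh : Shape (h : MatN n) := sh hs ⟨h, hh⟩
  have hsh' : Shape ((h⁻¹ : SLN n) : MatN n) := sh hs ⟨h⁻¹, Subgroup.inv_mem _ hh⟩
  obtain ⟨B, hB⟩ : ∃ B, B = blk1 (h : MatN n) := ⟨_, rfl⟩
  obtain ⟨B', hB'⟩ : ∃ B', B' = blk1 ((h⁻¹ : SLN n) : MatN n) := ⟨_, rfl⟩
  have hBB' : B * B' = 1 := by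
    rw [hB, hB', ← blk1_mul hsh.col0, ← Matrix.SpecialLinearGroup.coe_mul, mul_inv_cancel,
      Matrix.SpecialLinearGroup.coe_one, blk1_one]
  have hB'B : B' * B = 1 := by
    rw [hB, hB', ← blk1_mul hsh'.col0, ← Matrix.SpecialLinearGroup.coe_mul, inv_mul_cancel,
      Matrix.SpecialLinearGroup.coe_one, blk1_one]
  obtain ⟨m₀, hm₀, hφ⟩ := hfull (autOfMat θ Bᵀ B'ᵀ
    (by rw [← Matrix.transpose_mul, hB'B, Matrix.transpose_one])
    (by rw [← Matrix.transpose_mul, hBB', Matrix.transpose_one]))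
  have hL : Lmat θ m₀ = Bᵀ := by
    apply mat_ext_mulVec
    intro v
    rw [Lmat_mulVec]
    have h1 : (MulAut.conjNormal m₀ : MulAut ↥U) (θ.symm (Multiplicative.ofAdd v)) =
        autOfMat θ Bᵀ B'ᵀ
          (by rw [← Matrix.transpose_mul, hB'B, Matrix.transpose_one])
          (by rw [← Matrix.transpose_mul, hBB', Matrix.transpose_one])
          (θ.symm (Multiplicative.ofAdd v)) := by
      apply Subtype.ext
      rw [MulAut.conjNormal_apply, hφ]
    rw [h1, autOfMat_apply]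
    simp only [MulEquiv.apply_symm_apply, toAdd_ofAdd]
  have hA : ((AGL θ m₀⁻¹ : GL (Fin (n + 1)) (ZMod 2)) :
      Matrix (Fin (n + 1)) (Fin (n + 1)) (ZMod 2)) = B := by
    rw [AGL_coe, inv_inv, hL, Matrix.transpose_transpose]
  have hX : ((AGL θ m₀ : GL (Fin (n + 1)) (ZMod 2)) :
      Matrix (Fin (n + 1)) (Fin (n + 1)) (ZMod 2)) = B' := by
    have h1 : B * ((AGL θ m₀ : GL (Fin (n + 1)) (ZMod 2)) :
        Matrix (Fin (n + 1)) (Fin (n + 1)) (ZMod 2)) = 1 := by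
      rw [← hA, ← Matrix.GeneralLinearGroup.coe_mul, ← map_mul, inv_mul_cancel, map_one]
      rfl
    calc ((AGL θ m₀ : GL (Fin (n + 1)) (ZMod 2)) :
          Matrix (Fin (n + 1)) (Fin (n + 1)) (ZMod 2))
        = (B' * B) * ((AGL θ m₀ : GL (Fin (n + 1)) (ZMod 2)) :
          Matrix (Fin (n + 1)) (Fin (n + 1)) (ZMod 2)) := by rw [hB'B, Matrix.one_mul]
      _ = B' * (B * ((AGL θ m₀ : GL (Fin (n + 1)) (ZMod 2)) :
          Matrix (Fin (n + 1)) (Fin (n + 1)) (ZMod 2))) := Matrix.mul_assoc _ _ _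
      _ = B' := by rw [h1, Matrix.mul_one]
  have h₁mat : ((h * (fG θ m₀⁻¹)⁻¹ : SLN n) : MatN n) = (h : MatN n) * bd B' := by
    rw [← map_inv, inv_inv, Matrix.SpecialLinearGroup.coe_mul]
    show (h : MatN n) * bd ((AGL θ m₀ : GL (Fin (n + 1)) (ZMod 2)) :
      Matrix (Fin (n + 1)) (Fin (n + 1)) (ZMod 2)) = _
    rw [hX]
  have hcol : ∀ i, i ≠ 0 → ((h * (fG θ m₀⁻¹)⁻¹ : SLN n) : MatN n) i 0 = 0 := by
    intro i hi
    rw [h₁mat, mul_bd_col0]
    exact hsh.col0 i hi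
  have h00 : ((h * (fG θ m₀⁻¹)⁻¹ : SLN n) : MatN n) 0 0 = 1 := by
    rw [h₁mat, mul_bd_col0]
    exact hsh.g00
  have hblk : blk1 ((h * (fG θ m₀⁻¹)⁻¹ : SLN n) : MatN n) = 1 := by
    rw [h₁mat, blk1_mul hsh.col0, blk1_bd, ← hB, hBB']
  have hrow := eq_rowMat_of hcol h00 hblk
  obtain ⟨ρ, hρ⟩ : ∃ ρ : Fin (n + 1) → ZMod 2,
      ρ = fun j => ((h * (fG θ m₀⁻¹)⁻¹ : SLN n) : MatN n) 0 j.succ := ⟨_, rfl⟩
  rw [← hρ] at hrow
  have h₁eq : h * (fG θ m₀⁻¹)⁻¹ = fU θ (θ.symm (Multiplicative.ofAdd ρ)) := by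
    apply Subtype.ext
    rw [hrow]
    show _ = rowMat (Fin.cons 0 (Multiplicative.toAdd (θ (θ.symm (Multiplicative.ofAdd ρ)))))
    rw [MulEquiv.apply_symm_apply, toAdd_ofAdd]
  refine ⟨(θ.symm (Multiplicative.ofAdd ρ) : G) * ((⟨m₀⁻¹, M.inv_mem hm₀⟩ : ↥M) : G), ?_⟩
  rw [Psi_mul θ hc, ← h₁eq, inv_mul_cancel_right]

end psi

/-- a normal subgroup of exponent two inside `C` lies in the `2`-core of `C` -/
theorem normal_le_pCore_map {G : Type*} [Group G] (N : Subgroup G) [N.Normal]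
    (hN : ∀ a ∈ N, a * a = 1) (C : Subgroup G) (hNC : N ≤ C) :
    N ≤ (Cfsg.pCore 2 ↥C).map C.subtype := by
  have hnorm : (N.subgroupOf C).Normal := inferInstance
  have hp : IsPGroup 2 ↥(N.subgroupOf C) := by
    intro g
    refine ⟨1, ?_⟩
    apply Subtype.ext
    apply Subtype.ext
    rw [pow_one, pow_two]
    exact hN _ (Subgroup.mem_subgroupOf.1 g.2)
  have hcore : N.subgroupOf C ≤ Cfsg.pCore 2 ↥C := le_sSup ⟨hnorm, hp⟩
  intro g hg
  exact ⟨⟨g, hNC hg⟩, hcore (Subgroup.mem_subgroupOf.2 hg), rfl⟩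

/-- a subgroup with more than two elements has an element other than `1` and `z` -/
theorem exists_third {G : Type*} [Group G] (H : Subgroup G) (z : G) (hcard : 2 < Nat.card ↥H) :
    ∃ b ∈ H, b ≠ 1 ∧ b ≠ z := by
  by_contra hcon
  push Not at hcon
  have hle : Nat.card ↥H ≤ 2 := by
    classical
    have hinj : Function.Injective
        (fun g : ↥H => (if g.1 = 1 then (0 : Fin 2) else 1)) := by
      intro a c hac
      apply Subtype.ext
      by_cases ha : a.1 = 1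
      · by_cases hc : c.1 = 1
        · rw [ha, hc]
        · simp only [if_pos ha, if_neg hc] at hac
          exact absurd hac (by decide)
      · by_cases hc : c.1 = 1
        · simp only [if_neg ha, if_pos hc] at hac
          exact absurd hac (by decide)
        · rw [hcon a.1 a.2 ha, hcon c.1 c.2 hc]
    have h := Nat.card_le_card_of_injective _ hinj
    rwa [Nat.card_fin] at h
  omega

end Cfsg.Agent.Lib.Helper6.TG
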