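import Mathlib
import Cfsg.Agent.Lib.Helper6.M12Enum
import Cfsg.Agent.Lib.Helper7.GolayWeights

set_option autoImplicit false

/-! # The groups `Spor.M12`, `Spor.M11` and the complement of the dodecad of squares -/

namespace Cfsg.Agent.Lib.Helper6.M12

open Cfsg Cfsg.Agent.Lib.Helper6.Golay Cfsg.Agent.Lib.Helper6.M24
open scoped Pointwise

theorem compl_mem_dodecads {d : Finset GolayPt} (hd : d ∈ dodecads) : dᶜ ∈ dodecads := by
  refine ⟨Cfsg.Agent.Lib.Helper7.compl_mem_golaySupports hd.1, ?_⟩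
  rw [Finset.card_compl, card_golayPt, hd.2]

theorem none_not_mem_squareDodecad : (none : GolayPt) ∉ Cfsg.Spor.squareDodecad := by
  rw [squareDodecad_eq, show (none : GolayPt) = pt 23 from rfl, mem_suppMask,
    idx_pt (by norm_num)]
  decide

theorem mem_sporM12 {σ : Equiv.Perm GolayPt} :
    σ ∈ Cfsg.Spor.M12 ↔ σ ∈ M24 ∧ σ • Cfsg.Spor.squareDodecad = Cfsg.Spor.squareDodecad :=
  Iff.rfl

theorem mem_sporM11 {σ : Equiv.Perm GolayPt} :
    σ ∈ Cfsg.Spor.M11 ↔ (σ ∈ M24 ∧ σ • Cfsg.Spor.squareDodecad = Cfsg.Spor.squareDodecad) ∧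
      σ (some 0) = some 0 :=
  Iff.rfl

theorem smul_finset_compl' (σ : Equiv.Perm GolayPt) (d : Finset GolayPt) :
    σ • dᶜ = (σ • d)ᶜ := by
  ext q
  obtain ⟨r, rfl⟩ : ∃ r, σ r = q := ⟨σ⁻¹ q, by simp⟩
  rw [smul_mem_smul_iff, Finset.mem_compl, Finset.mem_compl, smul_mem_smul_iff]

theorem smul_compl_eq_iff (σ : Equiv.Perm GolayPt) (d : Finset GolayPt) :
    σ • dᶜ = dᶜ ↔ σ • d = d := by
  rw [smul_finset_compl', compl_inj_iff]

/-- the stabiliser in `M24` of a dodecad and one of its points is transitive on the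
complement -/
theorem stab_point_transitive_compl {d : Finset GolayPt} (hd : d ∈ dodecads) {p : GolayPt}
    (hp : p ∈ d) {a b : GolayPt} (ha : a ∉ d) (hb : b ∉ d) :
    ∃ g ∈ M24, g • d = d ∧ g p = p ∧ g a = b := by
  have hc : (dᶜ).card = 12 := (compl_mem_dodecads hd).2
  let za : Fin 1 ↪ GolayPt := ⟨fun _ => a, fun i j _ => Subsingleton.elim i j⟩
  let zb : Fin 1 ↪ GolayPt := ⟨fun _ => b, fun i j _ => Subsingleton.elim i j⟩
  obtain ⟨x, hx, hxa⟩ := exists_emb_extend hc (by norm_num : 1 ≤ 5) za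
    (fun _ => Finset.mem_compl.2 ha)
  obtain ⟨y, hy, hyb⟩ := exists_emb_extend hc (by norm_num : 1 ≤ 5) zb
    (fun _ => Finset.mem_compl.2 hb)
  let x3 : Fin 3 ↪ GolayPt := (Fin.castLEEmb (by norm_num : 3 ≤ 5)).trans x
  let y3 : Fin 3 ↪ GolayPt := (Fin.castLEEmb (by norm_num : 3 ≤ 5)).trans y
  obtain ⟨g, hg, hgx⟩ := stab_point_three hd hp x3 y3
    (fun i => Finset.mem_compl.1 (hx _)) (fun i => Finset.mem_compl.1 (hy _))
  refine ⟨(g : Equiv.Perm GolayPt), g.2, hg.1, ?_, ?_⟩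
  · exact hg.2
  · have h0 := hgx 0
    have e1 : x3 0 = a := hxa 0
    have e2 : y3 0 = b := hyb 0
    rw [e1, e2] at h0
    exact h0

/-- `Spor.M11` is transitive on the complement of the dodecad of squares -/
theorem sporM11_transitive_compl {a b : GolayPt} (ha : a ∉ Cfsg.Spor.squareDodecad)
    (hb : b ∉ Cfsg.Spor.squareDodecad) : ∃ x ∈ Cfsg.Spor.M11, x a = b := by
  obtain ⟨g, hg, hgd, hgp, hgab⟩ := stab_point_transitive_compl squareDodecad_mem some_zero_mem
    ha hb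
  exact ⟨g, ⟨⟨hg, hgd⟩, hgp⟩, hgab⟩

/-- an element of `M24` interchanging the dodecad of squares with its complement and mapping
the residue `0` to the extra point -/
theorem exists_swap_squareDodecad :
    ∃ g ∈ M24, g • Cfsg.Spor.squareDodecad = Cfsg.Spor.squareDodecadᶜ ∧ g (some 0) = none := by
  have hd := squareDodecad_mem
  have hc := compl_mem_dodecads hd
  obtain ⟨g0, hg0⟩ := dodecad_transitive hd hc
  have hg0' : (g0 : Equiv.Perm GolayPt) • Cfsg.Spor.squareDodecad = Cfsg.Spor.squareDodecadᶜ := hg0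
  have hq : (g0 : Equiv.Perm GolayPt) (some 0) ∈ Cfsg.Spor.squareDodecadᶜ := by
    rw [← hg0']
    exact (smul_mem_smul_iff _ _ _).2 some_zero_mem
  obtain ⟨h, hh⟩ := stab_transitive hc hq (Finset.mem_compl.2 none_not_mem_squareDodecad)
  have hh' : ((h : M24) : Equiv.Perm GolayPt) • Cfsg.Spor.squareDodecadᶜ =
      Cfsg.Spor.squareDodecadᶜ := h.2
  refine ⟨((h : M24) : Equiv.Perm GolayPt) * (g0 : Equiv.Perm GolayPt),
    Subgroup.mul_mem _ (h : M24).2 g0.2, ?_, ?_⟩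
  · rw [mul_smul, hg0', hh']
  · exact hh

end Cfsg.Agent.Lib.Helper6.M12
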