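import Mathlib
import Cfsg.Agent.Lib.Helper6.M11Pair
import Cfsg.Agent.Lib.Helper6.M11Facts
import Cfsg.Agent.Lib.Helper6.M24Nrm11
import Cfsg.Agent.Lib.Helper6.OctRec
import Cfsg.Agent.S0498

set_option autoImplicit false

/-! # The stabiliser of a dodecad, a point of it and a point outside (`PSL(2,11)`) -/

namespace Cfsg.Agent.Lib.Helper6.M12

open Cfsg Cfsg.Agent.Lib.Helper6.Golay Cfsg.Agent.Lib.Helper6.M24
open scoped Pointwise

/-- the stabiliser of a dodecad, one of its points and an outside point has order `660` -/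
theorem card_stab_dpq {d : Finset GolayPt} (hd : d ∈ dodecads) {p q : GolayPt} (hp : p ∈ d)
    (hq : q ∉ d) :
    Nat.card ↥(MulAction.stabilizer M24 d ⊓ MulAction.stabilizer M24 p ⊓
      MulAction.stabilizer M24 q) = 660 := by
  have c1 := card_stab_dodecad_point hd hp
  have e1 := card_stabilizer_point (MulAction.stabilizer M24 d ⊓ MulAction.stabilizer M24 p) q
  rw [c1] at e1
  have horb : MulAction.orbit ↥(MulAction.stabilizer M24 d ⊓ MulAction.stabilizer M24 p) q =
      ↑(dᶜ) := by
    ext b
    rw [MulAction.mem_orbit_iff, Finset.mem_coe, Finset.mem_compl]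
    constructor
    · rintro ⟨g, rfl⟩ hmem
      exact hq ((stab_mem_iff g.2.1 q).1 hmem)
    · intro hb
      obtain ⟨g, hg, hgd, hgp, hgq⟩ := stab_point_transitive_compl hd hp hq hb
      exact ⟨⟨⟨g, hg⟩, ⟨hgd, hgp⟩⟩, hgq⟩
  rw [horb, Set.ncard_coe_finset, Finset.card_compl, card_golayPt, card_of_mem_dodecads hd] at e1
  omega

theorem dvd_120_aux : ∀ n : ℕ, n ∣ 120 → 60 ≤ n → n ≠ 120 → n = 60 := by
  intro n hdvd hge hne
  have hle : n ≤ 120 := Nat.le_of_dvd (by norm_num) hdvd
  obtain ⟨k, hk⟩ := hdvd
  have hk2 : k ≤ 2 := by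
    by_contra hc
    have : 60 * 3 ≤ n * k := Nat.mul_le_mul hge (by omega)
    omega
  interval_cases k <;> omega

/-- the stabiliser of a dodecad, one of its points and two outside points is simple of order
`60` -/
theorem stab_dpqa {d : Finset GolayPt} (hd : d ∈ dodecads) {p q a : GolayPt} (hp : p ∈ d)
    (hq : q ∉ d) (ha : a ∉ d) (hqa : q ≠ a) :
    Nat.card ↥(MulAction.stabilizer M24 d ⊓ MulAction.stabilizer M24 p ⊓
      MulAction.stabilizer M24 q ⊓ MulAction.stabilizer M24 a) = 60 ∧
    IsSimpleGroup ↥(MulAction.stabilizer M24 d ⊓ MulAction.stabilizer M24 p ⊓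
      MulAction.stabilizer M24 q ⊓ MulAction.stabilizer M24 a) := by
  classical
  obtain ⟨e⟩ := stab_pair_equiv hd hp hq ha hqa
  have hLS : MulAction.stabilizer M24 d ⊓ MulAction.stabilizer M24 p ⊓
      MulAction.stabilizer M24 q ⊓ MulAction.stabilizer M24 a ≤
      MulAction.stabilizer M24 d ⊓ MulAction.stabilizer M24 p ⊓
      MulAction.stabilizer M24 ({q, a} : Finset GolayPt) := by
    rintro g ⟨⟨hgdp, hgq⟩, hga⟩
    refine ⟨hgdp, ?_⟩
    have hgq' : (g : Equiv.Perm GolayPt) q = q := hgq
    have hga' : (g : Equiv.Perm GolayPt) a = a := hga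
    show ({q, a} : Finset GolayPt).image (g : Equiv.Perm GolayPt) = {q, a}
    rw [Finset.image_insert, Finset.image_singleton, hgq', hga']
  have cS : Nat.card ↥(MulAction.stabilizer M24 d ⊓ MulAction.stabilizer M24 p ⊓
      MulAction.stabilizer M24 ({q, a} : Finset GolayPt)) = 120 := by
    rw [Nat.card_congr e.toEquiv, Nat.card_eq_fintype_card, Fintype.card_perm, Fintype.card_fin]
    rfl
  -- lower bound
  have cge : 60 ≤ Nat.card ↥(MulAction.stabilizer M24 d ⊓ MulAction.stabilizer M24 p ⊓
      MulAction.stabilizer M24 q ⊓ MulAction.stabilizer M24 a) := by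
    have c1 := card_stab_dpq hd hp hq
    have e2 := card_stabilizer_point (MulAction.stabilizer M24 d ⊓ MulAction.stabilizer M24 p ⊓
      MulAction.stabilizer M24 q) a
    rw [c1] at e2
    have o2 : (MulAction.orbit ↥(MulAction.stabilizer M24 d ⊓ MulAction.stabilizer M24 p ⊓
        MulAction.stabilizer M24 q) a).ncard ≤ 11 := by
      have hsub : MulAction.orbit ↥(MulAction.stabilizer M24 d ⊓ MulAction.stabilizer M24 p ⊓
          MulAction.stabilizer M24 q) a ⊆ ↑((dᶜ).erase q) := by
        rintro _ ⟨g, rfl⟩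
        have hgq : ((g : M24) : Equiv.Perm GolayPt) q = q := g.2.2
        rw [Finset.mem_coe, Finset.mem_erase, Finset.mem_compl]
        refine ⟨fun e => hqa ?_, fun hmem => ha ((stab_mem_iff g.2.1.1 a).1 hmem)⟩
        have e' : ((g : M24) : Equiv.Perm GolayPt) a = ((g : M24) : Equiv.Perm GolayPt) q :=
          e.trans hgq.symm
        exact (((g : M24) : Equiv.Perm GolayPt).injective e').symm
      refine (Set.ncard_le_ncard hsub (Finset.finite_toSet _)).trans ?_
      rw [Set.ncard_coe_finset, Finset.card_erase_of_mem (Finset.mem_compl.2 hq),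
        Finset.card_compl, card_golayPt, card_of_mem_dodecads hd]
    by_contra hc
    have h4 : 660 ≤ 11 * 59 := by
      rw [← e2]; exact Nat.mul_le_mul o2 (by omega)
    omega
  -- an element interchanging `q` and `a`
  have hne : MulAction.stabilizer M24 d ⊓ MulAction.stabilizer M24 p ⊓
      MulAction.stabilizer M24 q ⊓ MulAction.stabilizer M24 a ≠
      MulAction.stabilizer M24 d ⊓ MulAction.stabilizer M24 p ⊓
      MulAction.stabilizer M24 ({q, a} : Finset GolayPt) := by
    have hc : (dᶜ).card = 12 := by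
      rw [Finset.card_compl, card_golayPt, card_of_mem_dodecads hd]
    obtain ⟨c, hcc, hcn⟩ := Finset.exists_mem_notMem_of_card_lt_card
      (s := ({q, a} : Finset GolayPt)) (t := dᶜ) (by rw [hc, Finset.card_pair hqa]; norm_num)
    have hcd : c ∉ d := Finset.mem_compl.1 hcc
    rw [Finset.mem_insert, Finset.mem_singleton, not_or] at hcn
    let x : Fin 3 ↪ GolayPt := Cfsg.Agent.Lib.Helper7.embOfList [q, a, c]
      (by simp [hqa, Ne.symm hcn.1, Ne.symm hcn.2])
    let y : Fin 3 ↪ GolayPt := Cfsg.Agent.Lib.Helper7.embOfList [a, q, c]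
      (by simp [Ne.symm hqa, Ne.symm hcn.1, Ne.symm hcn.2])
    have hx : ∀ i, x i ∉ d := by
      intro i
      fin_cases i
      · exact hq
      · exact ha
      · exact hcd
    have hy : ∀ i, y i ∉ d := by
      intro i
      fin_cases i
      · exact ha
      · exact hq
      · exact hcd
    obtain ⟨g, hg, hgx⟩ := stab_point_three hd hp x y hx hy
    have h0 : (g : Equiv.Perm GolayPt) q = a := hgx 0
    have h1 : (g : Equiv.Perm GolayPt) a = q := hgx 1
    intro hEq
    have hgS : g ∈ MulAction.stabilizer M24 d ⊓ MulAction.stabilizer M24 p ⊓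
        MulAction.stabilizer M24 ({q, a} : Finset GolayPt) := by
      refine ⟨hg, ?_⟩
      show ({q, a} : Finset GolayPt).image (g : Equiv.Perm GolayPt) = {q, a}
      rw [Finset.image_insert, Finset.image_singleton, h0, h1, Finset.pair_comm]
    rw [← hEq] at hgS
    have h2 : (g : Equiv.Perm GolayPt) q = q := hgS.1.2
    rw [h0] at h2
    exact hqa h2.symm
  have cL : Nat.card ↥(MulAction.stabilizer M24 d ⊓ MulAction.stabilizer M24 p ⊓
      MulAction.stabilizer M24 q ⊓ MulAction.stabilizer M24 a) = 60 := by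
    have hdvd := Subgroup.card_dvd_of_le hLS
    rw [cS] at hdvd
    refine dvd_120_aux _ hdvd cge (fun h => hne ?_)
    exact Subgroup.eq_of_le_of_card_ge hLS (by rw [cS, h])
  have hidx : ((MulAction.stabilizer M24 d ⊓ MulAction.stabilizer M24 p ⊓
      MulAction.stabilizer M24 q ⊓ MulAction.stabilizer M24 a).subgroupOf
      (MulAction.stabilizer M24 d ⊓ MulAction.stabilizer M24 p ⊓
      MulAction.stabilizer M24 ({q, a} : Finset GolayPt))).index = 2 := by
    have h1 := Subgroup.card_mul_index ((MulAction.stabilizer M24 d ⊓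
      MulAction.stabilizer M24 p ⊓ MulAction.stabilizer M24 q ⊓
      MulAction.stabilizer M24 a).subgroupOf (MulAction.stabilizer M24 d ⊓
      MulAction.stabilizer M24 p ⊓ MulAction.stabilizer M24 ({q, a} : Finset GolayPt)))
    rw [Nat.card_congr (Subgroup.subgroupOfEquivOfLe hLS).toEquiv, cL, cS] at h1
    omega
  have hidx2 : (((MulAction.stabilizer M24 d ⊓ MulAction.stabilizer M24 p ⊓
      MulAction.stabilizer M24 q ⊓ MulAction.stabilizer M24 a).subgroupOf
      (MulAction.stabilizer M24 d ⊓ MulAction.stabilizer M24 p ⊓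
      MulAction.stabilizer M24 ({q, a} : Finset GolayPt))).map
        (e : ↥(MulAction.stabilizer M24 d ⊓ MulAction.stabilizer M24 p ⊓
          MulAction.stabilizer M24 ({q, a} : Finset GolayPt)) →* Equiv.Perm (Fin 5))).index = 2 := by
    rw [Subgroup.index_map_of_bijective e.bijective]; exact hidx
  have halt := Equiv.Perm.eq_alternatingGroup_of_index_eq_two hidx2
  have eL : ↥(MulAction.stabilizer M24 d ⊓ MulAction.stabilizer M24 p ⊓
      MulAction.stabilizer M24 q ⊓ MulAction.stabilizer M24 a) ≃*
      ↥(alternatingGroup (Fin 5)) :=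
    ((Subgroup.subgroupOfEquivOfLe hLS).symm.trans (e.subgroupMap _)).trans
      (MulEquiv.subgroupCongr halt)
  exact ⟨cL, eL.isSimpleGroup⟩

/-- a divisor of `660` prime to `30` is `1` or `11` -/
def aux660 (n : ℕ) : Bool :=
  or (not (Nat.beq (660 % n) 0)) (or (Nat.beq (n % 2) 0) (or (Nat.beq (n % 3) 0)
    (or (Nat.beq (n % 5) 0) (or (Nat.beq n 1) (Nat.beq n 11)))))

theorem aux660_check : chk aux660 661 = true := by decide +kernel

theorem dvd_660_aux (n : ℕ) (h : n < 661) (hd : n ∣ 660) (h2 : ¬ 2 ∣ n) (h3 : ¬ 3 ∣ n)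
    (h5 : ¬ 5 ∣ n) : n = 1 ∨ n = 11 := by
  have hc := chk_spec aux660_check n h
  unfold aux660 at hc
  simp only [Bool.or_eq_true, Bool.not_eq_true'] at hc
  rcases hc with hc | hc | hc | hc | hc | hc
  · rw [Nat.mod_eq_zero_of_dvd hd] at hc
    exact absurd hc (by decide)
  · exact absurd (Nat.dvd_of_mod_eq_zero (Nat.eq_of_beq_eq_true hc)) h2
  · exact absurd (Nat.dvd_of_mod_eq_zero (Nat.eq_of_beq_eq_true hc)) h3
  · exact absurd (Nat.dvd_of_mod_eq_zero (Nat.eq_of_beq_eq_true hc)) h5
  · exact Or.inl (Nat.eq_of_beq_eq_true hc)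
  · exact Or.inr (Nat.eq_of_beq_eq_true hc)

theorem dvd_660_aux2 : ∀ n : ℕ, n < 661 → n ∣ 660 → 60 ∣ n → n = 60 ∨ n = 660 := by
  decide +kernel

/-- the stabiliser of a dodecad, one of its points and an outside point is simple -/
theorem stab_dpq_simple {d : Finset GolayPt} (hd : d ∈ dodecads) {p q : GolayPt} (hp : p ∈ d)
    (hq : q ∉ d) :
    IsSimpleGroup ↥(MulAction.stabilizer M24 d ⊓ MulAction.stabilizer M24 p ⊓
      MulAction.stabilizer M24 q) := by
  classical
  have cK := card_stab_dpq hd hp hq
  have hnt : Nontrivial ↥(MulAction.stabilizer M24 d ⊓ MulAction.stabilizer M24 p ⊓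
      MulAction.stabilizer M24 q) := by
    rw [← Finite.one_lt_card_iff_nontrivial, cK]; norm_num
  -- point stabilisers
  have hKc : ∀ c : GolayPt, c ∉ d → q ≠ c →
      Nat.card ↥(MulAction.stabilizer ↥(MulAction.stabilizer M24 d ⊓
        MulAction.stabilizer M24 p ⊓ MulAction.stabilizer M24 q) c) = 60 ∧
      IsSimpleGroup ↥(MulAction.stabilizer ↥(MulAction.stabilizer M24 d ⊓
        MulAction.stabilizer M24 p ⊓ MulAction.stabilizer M24 q) c) := by
    intro c hc hqc
    obtain ⟨h60, hsim⟩ := stab_dpqa hd hp hq hc hqc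
    let ε : ↥(MulAction.stabilizer ↥(MulAction.stabilizer M24 d ⊓
        MulAction.stabilizer M24 p ⊓ MulAction.stabilizer M24 q) c) ≃*
        ↥(MulAction.stabilizer M24 d ⊓ MulAction.stabilizer M24 p ⊓
          MulAction.stabilizer M24 q ⊓ MulAction.stabilizer M24 c) :=
      { toFun := fun g => ⟨g.1.1, ⟨g.1.2, g.2⟩⟩
        invFun := fun g => ⟨⟨g.1, g.2.1⟩, g.2.2⟩
        left_inv := fun _ => rfl
        right_inv := fun _ => rfl
        map_mul' := fun _ _ => rfl }
    exact ⟨(Nat.card_congr ε.toEquiv).trans h60, ε.isSimpleGroup⟩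
  refine ⟨fun N hN => ?_⟩
  have hNdvd : Nat.card N ∣ 660 := by
    rw [← cK]; exact Subgroup.card_subgroup_dvd_card N
  have hNle : Nat.card N < 661 := Nat.lt_succ_of_le (Nat.le_of_dvd (by norm_num) hNdvd)
  by_cases hex : ∃ c : GolayPt, c ∉ d ∧ q ≠ c ∧
      MulAction.stabilizer ↥(MulAction.stabilizer M24 d ⊓
        MulAction.stabilizer M24 p ⊓ MulAction.stabilizer M24 q) c ≤ N
  · -- `N` contains a point stabiliser
    obtain ⟨c, hc, hqc, hle⟩ := hex
    obtain ⟨h60, -⟩ := hKc c hc hqc
    have h60dvd : 60 ∣ Nat.card N := by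
      rw [← h60]; exact Subgroup.card_dvd_of_le hle
    rcases dvd_660_aux2 _ hNle hNdvd h60dvd with h | h
    · exfalso
      have hEq := Subgroup.eq_of_le_of_card_ge hle (by rw [h60, h])
      -- an element moving `c`
      have hmove : ∃ g : ↥(MulAction.stabilizer M24 d ⊓ MulAction.stabilizer M24 p ⊓
          MulAction.stabilizer M24 q), g • c ≠ c := by
        by_contra hall
        push Not at hall
        have htop : MulAction.stabilizer ↥(MulAction.stabilizer M24 d ⊓
            MulAction.stabilizer M24 p ⊓ MulAction.stabilizer M24 q) c = ⊤ := by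
          rw [eq_top_iff]
          intro g _
          exact hall g
        rw [htop, Subgroup.card_top, cK] at h60
        omega
      obtain ⟨g, hg⟩ := hmove
      have hgq : ((g : M24) : Equiv.Perm GolayPt) q = q := g.2.2
      have hc2d : g • c ∉ d := fun hmem => hc ((stab_mem_iff g.2.1.1 c).1 hmem)
      have hc2q : q ≠ g • c := by
        intro e
        have e' : ((g : M24) : Equiv.Perm GolayPt) q = ((g : M24) : Equiv.Perm GolayPt) c :=
          hgq.trans e
        exact hqc (((g : M24) : Equiv.Perm GolayPt).injective e')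
      -- every element of the point stabiliser fixes `g • c`
      have hfix : ∀ h ∈ MulAction.stabilizer ↥(MulAction.stabilizer M24 d ⊓
          MulAction.stabilizer M24 p ⊓ MulAction.stabilizer M24 q) c, h • (g • c) = g • c := by
        intro h hh
        rw [hEq] at hh
        have h1 := hN.conj_mem h hh g⁻¹
        rw [← hEq] at h1
        have h2 : (g⁻¹ * h * g⁻¹⁻¹) • c = c := h1
        rw [inv_inv, mul_smul, mul_smul, inv_smul_eq_iff] at h2
        exact h2
      let x : Fin 3 ↪ GolayPt := Cfsg.Agent.Lib.Helper7.embOfList [q, c, g • c]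
        (by simp [hqc, hc2q, Ne.symm hg])
      have hx : ∀ i, x i ∉ d := by
        intro i
        fin_cases i
        · exact hq
        · exact hc
        · exact hc2d
      have h6 := stab_triple_le hd hp x hx
      let Θ : ↥(MulAction.stabilizer ↥(MulAction.stabilizer M24 d ⊓
          MulAction.stabilizer M24 p ⊓ MulAction.stabilizer M24 q) c) →
          ↥(MulAction.stabilizer (↥(MulAction.stabilizer M24 d ⊓ MulAction.stabilizer M24 p))
            x) := fun h => ⟨⟨h.1.1, h.1.2.1⟩, by
          rw [MulAction.mem_stabilizer_iff]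
          apply DFunLike.ext
          intro i
          fin_cases i
          · exact h.1.2.2
          · exact h.2
          · exact hfix h.1 h.2⟩
      have hΘ : Function.Injective Θ := by
        intro a b hab
        have h1 : a.1.1 = b.1.1 := congrArg (fun z => z.1.1) hab
        exact Subtype.ext (Subtype.ext h1)
      have := Nat.card_le_card_of_injective Θ hΘ
      omega
    · right
      exact Subgroup.eq_top_of_card_eq N (by rw [h, cK])
  · -- `N` meets every point stabiliser trivially
    push Not at hex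
    have hfree : ∀ n ∈ N, ∀ c : GolayPt, c ∉ d → q ≠ c → n • c = c → n = 1 := by
      intro n hn c hc hqc hnc
      obtain ⟨-, hsim⟩ := hKc c hc hqc
      have hnorm : (N.subgroupOf (MulAction.stabilizer ↥(MulAction.stabilizer M24 d ⊓
          MulAction.stabilizer M24 p ⊓ MulAction.stabilizer M24 q) c)).Normal := hN.subgroupOf _
      rcases hnorm.eq_bot_or_eq_top with h | h
      · have h1 : (⟨n, hnc⟩ : ↥(MulAction.stabilizer ↥(MulAction.stabilizer M24 d ⊓
            MulAction.stabilizer M24 p ⊓ MulAction.stabilizer M24 q) c)) ∈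
            N.subgroupOf (MulAction.stabilizer ↥(MulAction.stabilizer M24 d ⊓
              MulAction.stabilizer M24 p ⊓ MulAction.stabilizer M24 q) c) := hn
        rw [h, Subgroup.mem_bot] at h1
        exact congrArg Subtype.val h1
      · exact absurd (Subgroup.subgroupOf_eq_top.1 h) (hex c hc hqc)
    -- no elements of order 2, 3, 5
    have hprime : ∀ r : ℕ, r.Prime → 11 % r ≠ 0 → ¬ r ∣ Nat.card N := by
      intro r hr hmod hdvd
      have : Fact r.Prime := ⟨hr⟩
      obtain ⟨x, hx⟩ := exists_prime_orderOf_dvd_card' (G := ↥N) r hdvd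
      have hx1 : x ≠ 1 := by
        intro h
        rw [h, orderOf_one] at hx
        exact hr.one_lt.ne hx
      have hxr : x ^ r = 1 := by rw [← hx]; exact pow_orderOf_eq_one x
      have hσ : (((x : ↥(MulAction.stabilizer M24 d ⊓ MulAction.stabilizer M24 p ⊓
          MulAction.stabilizer M24 q)) : M24) : Equiv.Perm GolayPt) ^ r = 1 := by
        have e2 := congrArg (fun y : ↥N => ((((y : ↥(MulAction.stabilizer M24 d ⊓
          MulAction.stabilizer M24 p ⊓ MulAction.stabilizer M24 q)) : M24)) :
            Equiv.Perm GolayPt)) hxr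
        exact e2
      have hxq : (((x : ↥(MulAction.stabilizer M24 d ⊓ MulAction.stabilizer M24 p ⊓
          MulAction.stabilizer M24 q)) : M24) : Equiv.Perm GolayPt) q = q := x.1.2.2
      have hO : ∀ c ∈ (dᶜ).erase q, (((x : ↥(MulAction.stabilizer M24 d ⊓
          MulAction.stabilizer M24 p ⊓ MulAction.stabilizer M24 q)) : M24) :
            Equiv.Perm GolayPt) c ∈ (dᶜ).erase q := by
        intro c hc
        rw [Finset.mem_erase, Finset.mem_compl] at hc ⊢
        refine ⟨fun e => hc.1 ?_, fun hmem => hc.2 ((stab_mem_iff x.1.2.1.1 c).1 hmem)⟩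
        exact (((x : ↥(MulAction.stabilizer M24 d ⊓ MulAction.stabilizer M24 p ⊓
          MulAction.stabilizer M24 q)) : M24) : Equiv.Perm GolayPt).injective (e.trans hxq.symm)
      have hmodeq := Cfsg.Agent.Lib.Helper6.OutP.card_modEq_fixed _ r hσ ((dᶜ).erase q) hO
      rw [Finset.card_erase_of_mem (Finset.mem_compl.2 hq), Finset.card_compl, card_golayPt,
        card_of_mem_dodecads hd] at hmodeq
      have hpos : (((dᶜ).erase q).filter (fun c => (((x : ↥(MulAction.stabilizer M24 d ⊓
          MulAction.stabilizer M24 p ⊓ MulAction.stabilizer M24 q)) : M24) :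
            Equiv.Perm GolayPt) c = c)).Nonempty := by
        rw [Finset.nonempty_iff_ne_empty]
        intro e
        rw [e, Finset.card_empty] at hmodeq
        have h3 : (24 - 12 - 1) % r = 0 % r := hmodeq
        rw [Nat.zero_mod] at h3
        exact hmod h3
      obtain ⟨c, hc⟩ := hpos
      rw [Finset.mem_filter, Finset.mem_erase, Finset.mem_compl] at hc
      have h1 := hfree x.1 x.2 c hc.1.2 (Ne.symm hc.1.1) hc.2
      exact hx1 (Subtype.ext h1)
    rcases dvd_660_aux _ hNle hNdvd (hprime 2 Nat.prime_two (by norm_num))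
      (hprime 3 Nat.prime_three (by norm_num)) (hprime 5 Nat.prime_five (by norm_num)) with h | h
    · left
      exact Subgroup.eq_bot_of_card_eq N h
    · exfalso
      -- a normal subgroup of order 11 is impossible
      have hinj : Function.Injective (MulAction.stabilizer M24 d ⊓ MulAction.stabilizer M24 p ⊓
          MulAction.stabilizer M24 q).subtype := Subtype.val_injective
      have c11 : Nat.card ↥(N.map (MulAction.stabilizer M24 d ⊓ MulAction.stabilizer M24 p ⊓
          MulAction.stabilizer M24 q).subtype) = 11 := by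
        rw [← Nat.card_congr (N.equivMapOfInjective _ hinj).toEquiv, h]
      have hnorm := Cfsg.Agent.Lib.Helper6.N11.card_normalizer _ c11
      have hle : MulAction.stabilizer M24 d ⊓ MulAction.stabilizer M24 p ⊓
          MulAction.stabilizer M24 q ≤ Subgroup.normalizer
            ((N.map (MulAction.stabilizer M24 d ⊓ MulAction.stabilizer M24 p ⊓
              MulAction.stabilizer M24 q).subtype : Subgroup ↥M24) : Set ↥M24) := by
        intro k hk
        rw [Subgroup.mem_normalizer_iff]
        intro y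
        constructor
        · rintro ⟨n, hn, rfl⟩
          exact ⟨⟨k, hk⟩ * n * ⟨k, hk⟩⁻¹, hN.conj_mem n hn ⟨k, hk⟩, rfl⟩
        · rintro ⟨n, hn, hny⟩
          refine ⟨⟨k, hk⟩⁻¹ * n * ⟨k, hk⟩, ?_, ?_⟩
          · have := hN.conj_mem n hn (⟨k, hk⟩⁻¹)
            rwa [inv_inv] at this
          · have e1 : ((MulAction.stabilizer M24 d ⊓ MulAction.stabilizer M24 p ⊓
                MulAction.stabilizer M24 q).subtype n : M24) = k * y * k⁻¹ := hny
            show k⁻¹ * (n : M24) * k = y
            have e2 : (n : M24) = k * y * k⁻¹ := e1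
            rw [e2]; group
      have := Subgroup.card_le_of_le hle
      rw [cK, hnorm] at this
      omega

/-- the stabiliser of a dodecad, one of its points and an outside point is `PSL(2,11)` -/
theorem stab_dpq_equiv {d : Finset GolayPt} (hd : d ∈ dodecads) {p q : GolayPt} (hp : p ∈ d)
    (hq : q ∉ d) :
    Nonempty (↥(MulAction.stabilizer M24 d ⊓ MulAction.stabilizer M24 p ⊓
      MulAction.stabilizer M24 q) ≃* Matrix.ProjectiveSpecialLinearGroup (Fin 2) (ZMod 11)) := by
  have hs := stab_dpq_simple hd hp hq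
  have hF : Fact (Nat.Prime 11) := ⟨by norm_num⟩
  exact Cfsg.Agent.S0498.result 11 (Or.inl rfl) (by rw [card_stab_dpq hd hp hq]; norm_num) (ZMod.card 11)

end Cfsg.Agent.Lib.Helper6.M12
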