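import Mathlib
import Cfsg.Agent.Lib.Helper6.M24Nrm

set_option autoImplicit false

/-! # The normaliser in `M24` of a subgroup of order `7`
(generated by `tools/gen_m24nrm.py`) -/

namespace Cfsg.Agent.Lib.Helper6.N7

open Cfsg Cfsg.Agent.Lib.Helper6.Golay Cfsg.Agent.Lib.Helper6.M24 Cfsg.Agent.Lib.Helper6.M12
  Cfsg.Agent.Lib.Helper6.Cls
open scoped Pointwise

/-! ### the invariant trio -/

/-- the masks of the three octads of the trio preserved by the normaliser -/
def octs : List ℕ := [5279, 10832640, 5939296]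

/-- the trio preserved by the normaliser -/
def T0 : Finset (Finset GolayPt) := (octs.map suppMask).toFinset

theorem mem_T0 {x : Finset GolayPt} : x ∈ T0 ↔ ∃ m ∈ octs, suppMask m = x := by
  unfold T0
  rw [List.mem_toFinset, List.mem_map]

theorem octs_check : octs.all (fun a => and (Nat.blt a 16777216) (and (isCode a)
    (and (Nat.beq (pc24 a) 8) (octs.all (fun b => or (Nat.beq a b)
      (Nat.beq (Nat.land a b) 0)))))) = true := by
  decide +kernel

theorem octs_nodup : octs.Nodup := by decide

theorem octs_lt {a : ℕ} (ha : a ∈ octs) : a < 2 ^ 24 := by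
  have h := List.all_eq_true.1 octs_check a ha
  rw [Bool.and_eq_true] at h
  have := Nat.le_of_ble_eq_true h.1
  omega

theorem T0_mem : T0 ∈ trios := by
  refine ⟨?_, ?_, ?_⟩
  · unfold T0
    rw [List.toFinset_card_of_nodup, List.length_map]
    · rfl
    · apply List.Nodup.map_on _ octs_nodup
      intro a ha b hb e
      exact suppMask_inj (octs_lt ha) (octs_lt hb) e
  · intro t ht
    obtain ⟨a, ha, rfl⟩ := mem_T0.1 ht
    have h := List.all_eq_true.1 octs_check a ha
    rw [Bool.and_eq_true, Bool.and_eq_true, Bool.and_eq_true] at h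
    obtain ⟨k, hk, e⟩ := isCode_iff.1 h.2.1
    refine mem_octads_iff.2 ⟨k, hk, ?_, by rw [← e]⟩
    rw [← e, ← pc24_eq]
    exact Nat.eq_of_beq_eq_true h.2.2.1
  · intro t ht u hu hne
    obtain ⟨a, ha, rfl⟩ := mem_T0.1 ht
    obtain ⟨b, hb, rfl⟩ := mem_T0.1 hu
    have h := List.all_eq_true.1 octs_check a ha
    rw [Bool.and_eq_true, Bool.and_eq_true, Bool.and_eq_true] at h
    have h2 := List.all_eq_true.1 h.2.2.2 b hb
    rw [Bool.or_eq_true] at h2
    rcases h2 with h2 | h2
    · exact absurd (by rw [Nat.eq_of_beq_eq_true h2]) hne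
    · have h3 : a &&& b = 0 := Nat.eq_of_beq_eq_true h2
      rw [Finset.disjoint_left]
      intro p hpa hpb
      rw [mem_suppMask] at hpa hpb
      have h4 : (a &&& b).testBit (idx p) = true := by
        rw [Nat.testBit_and, hpa, hpb]; rfl
      rw [h3] at h4
      simp at h4

/-- the coded element `w` permutes the three octads -/
def trOK (w : ℕ) : Bool := octs.all (fun m => octs.contains (Nat.land (pmC w m) 16777215))

theorem smul_T0_of_trOK {w : ℕ} (hv : tabValid (decodeTab w) = true) (hs : trOK w = true) :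
    tabPerm (decodeTab w) hv • T0 = T0 := by
  apply Finset.eq_of_subset_of_card_le
  · intro x hx
    obtain ⟨y, hy, rfl⟩ := Finset.mem_smul_finset.1 hx
    obtain ⟨m, hm, rfl⟩ := mem_T0.1 hy
    rw [smul_eq_image, ← smul_eq_image, smul_suppMask_code]
    apply mem_T0.2
    refine ⟨pmC w m &&& 16777215, ?_, rfl⟩
    have h1 := List.all_eq_true.1 hs m hm
    exact List.contains_iff_mem.1 h1
  · rw [Finset.card_smul_finset]

/-- the extra condition on witnesses: they preserve the trio -/
def ex (w : ℕ) : Bool := trOK w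

/-- the extra property of the elements of the normaliser -/
def exP (c : Equiv.Perm GolayPt) : Prop := c • T0 = T0

theorem ex_spec {w : ℕ} (hv : tabValid (decodeTab w) = true) (hs : ex w = true) :
    exP (tabPerm (decodeTab w) hv) := smul_T0_of_trOK hv hs

/-! ### the standard element -/

/-- the code of the standard element of order `7` -/
def y : ℕ := 44261771898038377462415053473361618

/-- the iterated action of the standard element on indices -/
def yi (i j : ℕ) : ℕ := Nat.iterate (evC y) i j

theorem y_mem : inM24c y = true := by decide +kernel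

theorem y_valid : tabValid (decodeTab y) = true := (inM24c_spec y_mem).1

/-- the standard element of order `7` -/
noncomputable def Y : Equiv.Perm GolayPt := tabPerm (decodeTab y) y_valid

theorem Y_mem : Y ∈ M24 := (inM24c_spec y_mem).2

theorem Y_acts : Acts Y (evC y) := acts_code y y_valid

theorem Y_pow_acts (i : ℕ) : Acts (Y ^ i) (yi i) := by
  induction i with
  | zero => rw [pow_zero]; exact acts_one
  | succ i ih => rw [pow_succ]; exact ih.mul Y_acts

theorem Y_pow : Y ^ 7 = 1 :=
  Acts.eq_of (Y_pow_acts 7) acts_one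
    (fun j hj => Nat.eq_of_beq_eq_true
      (chk_spec (by decide +kernel : chk (fun j => Nat.beq (yi 7 j) j) 24 = true) j hj))

theorem Y_line : ∀ k, k < 5 → yi k 0 = k := by decide +kernel

theorem Y_pow_pt0 (k : ℕ) : (Y ^ k) (pt 0) = pt (yi k 0) := (Y_pow_acts k 0 (by norm_num)).2

theorem Y_ne_one : Y ≠ 1 := by
  intro h
  have h1 := Y_pow_pt0 1
  rw [pow_one, h, Y_line 1 (by norm_num)] at h1
  exact absurd h1 (by decide)

theorem Y_order : orderOf Y = 7 :=
  haveI : Fact (Nat.Prime 7) := ⟨by norm_num⟩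
  orderOf_eq_prime Y_pow Y_ne_one

theorem free_check : ∀ j, j < 7 → j = 0 ∨ yi j 0 ≠ 0 := by decide +kernel

theorem Y_free : ∀ j, 0 < j → j < 7 → (Y ^ j) (pt 0) ≠ pt 0 := by
  intro j hj0 hjp e
  rw [Y_pow_pt0] at e
  have h1 := pt_injective (Y_pow_acts j 0 (by norm_num)).1 (by norm_num) e
  rcases free_check j hjp with h | h
  · omega
  · exact h h1

/-- the coded element `w` normalises the group generated by the standard element -/
def nrmOK (w : ℕ) : Bool :=
  (List.range 7).any (fun i => chk (fun j => Nat.beq (evC w (evC y j)) (yi i (evC w j))) 24)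

theorem nrmOK_spec {w : ℕ} (hv : tabValid (decodeTab w) = true)
    (hM : tabPerm (decodeTab w) hv ∈ M24) (h : nrmOK w = true) :
    tabPerm (decodeTab w) hv ∈ nrm Y := by
  unfold nrmOK at h
  rw [List.any_eq_true] at h
  obtain ⟨i, -, hi⟩ := h
  refine mem_nrm.2 ⟨hM, i, ?_⟩
  exact Acts.eq_of ((acts_code w hv).mul Y_acts) ((Y_pow_acts i).mul (acts_code w hv))
    (fun j hj => Nat.eq_of_beq_eq_true (chk_spec hi j hj))

/-! ### the orbit of the point `0` -/

/-- the mask of the points moved by the standard element -/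
def mv : ℕ := 12517247

theorem mv_fixed : ∀ j, j < 24 → mv.testBit j = true ∨ evC y j = j := by decide +kernel

theorem nrm_pt0 {c : Equiv.Perm GolayPt} (hc : c ∈ nrm Y) : c (pt 0) ∈ suppMask mv := by
  have h1 := nrm_moved (by norm_num) Y_pow Y_ne_one Y_free hc
  rcases mv_fixed (idx (c (pt 0))) (idx_lt _) with h | h
  · exact mem_suppMask.2 h
  · exfalso
    apply h1
    rw [Y_acts.fixed_iff]
    exact h

/-- elements of the normaliser moving the point `0` to each moved point -/
def W0 : List ℕ := [1383171691763700179920714943059671, 44261771898038377462415053473361618, 87148863793088166740705546664590024, 130306902231196182740425854236767763, 182136092023045981625755918195267089, 216273198084455471517341081069956338, 274603080235485220436554859218020866, 0, 344856030723591877420216277526434022, 401569825210441204754507614019322563, 415426996823058838568663961838145044, 476051313302217568972690478289423052, 511442612715509995466588885687509707, 546757414695902072453232871725273600, 612133635875772559716301429468008138,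 649571044151565214137334359097248268, 0, 726451474078511540745895600496870916, 758467483748467697349574811185069285, 811930750878581731708470404049011203, 847853644888964419952962397092062446, 887182484443525992919975378074306244, 0, 979084723579818285845486406379115200]

/-- level `0`: if `j` is a moved point then `w` lies in the normaliser and moves `0` to `j` -/
def lev0 (j w : ℕ) : Bool :=
  or (Nat.beq (Nat.land (Nat.shiftRight mv j) 1) 0)
    (and (inM24c w) (and (nrmOK w) (and (ex w) (Nat.beq (evC w 0) j))))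

set_option maxRecDepth 100000 in
theorem lev0_check : chkL lev0 W0 0 = true := by decide +kernel

theorem W0_length : W0.length = 24 := by decide

theorem lev0_spec {q : GolayPt} (hq : q ∈ suppMask mv) :
    ∃ c ∈ nrm Y, exP c ∧ c (pt 0) = q := by
  have hi : idx q < W0.length := by rw [W0_length]; exact idx_lt q
  have h := chkL_spec lev0 W0 0 lev0_check (idx q) hi
  unfold lev0 at h
  rw [Bool.or_eq_true] at h
  rcases h with h | h
  · exfalso
    rw [mem_suppMask] at hq
    rcases bit_cases mv (0 + idx q) with ⟨h1, _⟩ | ⟨_, h2⟩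
    · rw [Nat.zero_add, hq] at h1
      exact absurd h1 (by decide)
    · rw [h2] at h
      exact absurd h (by decide)
  · rw [Bool.and_eq_true, Bool.and_eq_true, Bool.and_eq_true] at h
    obtain ⟨hM, hn, hx, he⟩ := h
    obtain ⟨hv, hmem⟩ := inM24c_spec hM
    refine ⟨tabPerm (decodeTab W0[idx q]) hv, nrmOK_spec hv hmem hn, ex_spec hv hx, ?_⟩
    rw [tabPerm_decode_pt _ hv (by norm_num), Nat.eq_of_beq_eq_true he, Nat.zero_add, pt_idx]

/-! ### the orbit of the point `1` under the stabiliser of `0` -/

/-- the mask of the images of the point `1` -/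
def o1 : ℕ := 22

/-- elements of the normaliser fixing `0` and moving `1` to each point of `o1` -/
def W1 : List ℕ := [0, 1383171691763700179920714943059671, 2771134551227430841187500890101261, 0, 5248179414858699474236937287801357, 0, 0, 0, 0, 0, 0, 0, 0, 0, 0, 0, 0, 0, 0, 0, 0, 0, 0, 0]

/-- level `1`: if `j` lies in `o1` then `w` lies in the normaliser, fixes `0` and moves `1`
to `j` -/
def lev1 (j w : ℕ) : Bool :=
  or (Nat.beq (Nat.land (Nat.shiftRight o1 j) 1) 0)
    (and (inM24c w) (and (nrmOK w) (and (ex w)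
      (and (Nat.beq (evC w 0) 0) (Nat.beq (evC w 1) j)))))

set_option maxRecDepth 100000 in
theorem lev1_check : chkL lev1 W1 0 = true := by decide +kernel

theorem W1_length : W1.length = 24 := by decide

theorem lev1_spec {q : GolayPt} (hq : q ∈ suppMask o1) :
    ∃ c ∈ nrm Y, exP c ∧ c (pt 0) = pt 0 ∧ c (pt 1) = q := by
  have hi : idx q < W1.length := by rw [W1_length]; exact idx_lt q
  have h := chkL_spec lev1 W1 0 lev1_check (idx q) hi
  unfold lev1 at h
  rw [Bool.or_eq_true] at h
  rcases h with h | h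
  · exfalso
    rw [mem_suppMask] at hq
    rcases bit_cases o1 (0 + idx q) with ⟨h1, _⟩ | ⟨_, h2⟩
    · rw [Nat.zero_add, hq] at h1
      exact absurd h1 (by decide)
    · rw [h2] at h
      exact absurd h (by decide)
  · rw [Bool.and_eq_true, Bool.and_eq_true, Bool.and_eq_true, Bool.and_eq_true] at h
    obtain ⟨hM, hn, hx, he0, he1⟩ := h
    obtain ⟨hv, hmem⟩ := inM24c_spec hM
    refine ⟨tabPerm (decodeTab W1[idx q]) hv, nrmOK_spec hv hmem hn, ex_spec hv hx, ?_, ?_⟩
    · rw [tabPerm_decode_pt _ hv (by norm_num), Nat.eq_of_beq_eq_true he0]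
    · rw [tabPerm_decode_pt _ hv (by norm_num), Nat.eq_of_beq_eq_true he1, Nat.zero_add, pt_idx]

/-- templates: for the exponent `i`, an element `t` of `M24` mapping `k` to `yi (i * k) 0`
for `k < 5` -/
def Tm : List ℕ := [0, 0, 0, 4302888439931992222482491859676752, 0, 15700277925385770953264527531316655, 13472726328617189837914254887955622]

/-- the exponent `i` is zero, or it maps the point `1` into `o1`, or no element `t * m` with
`m` fixing `0,..,4` conjugates the standard element to its `i`-th power -/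
def tmplOK (i t : ℕ) : Bool :=
  or (Nat.beq i 0) (or (Nat.beq (Nat.land (Nat.shiftRight o1 (yi i 0)) 1) 1)
    (and (inM24c t) (and (chk (fun k => Nat.beq (evC t k) (yi (Nat.mul i k) 0)) 5)
      (L48c.all (fun m => not (chk (fun j =>
        Nat.beq (zf t m (evC y j)) (yi i (zf t m j))) 24))))))

set_option maxRecDepth 100000 in
theorem tm_check : chkL tmplOK Tm 0 = true := by decide +kernel

theorem Tm_length : Tm.length = 7 := by decide

theorem nrm_apply {c : Equiv.Perm GolayPt} {i : ℕ} (hi : c * Y = Y ^ i * c)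
    (h0 : c (pt 0) = pt 0) (k : ℕ) : c ((Y ^ k) (pt 0)) = pt (yi (i * k) 0) := by
  have h1 := Equiv.Perm.congr_fun (nrm_pow hi k) (pt 0)
  rw [Equiv.Perm.mul_apply, Equiv.Perm.mul_apply, h0, Y_pow_pt0 (i * k)] at h1
  exact h1

theorem nrm_pt {c : Equiv.Perm GolayPt} {i : ℕ} (hi : c * Y = Y ^ i * c)
    (h0 : c (pt 0) = pt 0) {k : ℕ} (hk : k < 5) : c (pt k) = pt (yi (i * k) 0) := by
  have h1 := nrm_apply hi h0 k
  rwa [Y_pow_pt0, Y_line k hk] at h1

theorem lev1_sub {c : Equiv.Perm GolayPt}
    (hc : c ∈ nrm Y ⊓ MulAction.stabilizer (Equiv.Perm GolayPt) (pt 0)) :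
    c (pt 1) ∈ suppMask o1 := by
  obtain ⟨hcN, hc0⟩ := hc
  have hc0' : c (pt 0) = pt 0 := hc0
  obtain ⟨i, hi0, hip, hi⟩ := nrm_exp (by norm_num) Y_pow Y_ne_one hcN
  have h1 : c (pt 1) = pt (yi i 0) := by
    have := nrm_pt hi hc0' (k := 1) (by norm_num)
    rwa [Nat.mul_one] at this
  have hT := chkL_spec tmplOK Tm 0 tm_check i (by rw [Tm_length]; exact hip)
  rw [Nat.zero_add] at hT
  generalize Tm[i] = t at hT
  unfold tmplOK at hT
  rw [Bool.or_eq_true, Bool.or_eq_true] at hT
  rcases hT with hT | hT | hT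
  · have := Nat.eq_of_beq_eq_true hT
    omega
  · rw [h1, mem_suppMask, idx_pt (Y_pow_acts i 0 (by norm_num)).1]
    rcases bit_cases o1 (yi i 0) with ⟨_, h2⟩ | ⟨h2, _⟩
    · rw [h2] at hT
      exact absurd hT (by decide)
    · exact h2
  · exfalso
    rw [Bool.and_eq_true, Bool.and_eq_true] at hT
    obtain ⟨hM, hk, hall⟩ := hT
    have hTm : ∀ k, k < 5 → evC t k = yi (i * k) 0 :=
      fun k hk5 => Nat.eq_of_beq_eq_true (chk_spec hk k hk5)
    have h5 : ∀ k, k < 5 → c (pt k) = pt (evC t k) :=
      fun k hk5 => (nrm_pt hi hc0' hk5).trans (congrArg pt (hTm k hk5).symm)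
    obtain ⟨m, hm, hA⟩ := normal5 (mem_nrm.1 hcN).1 hM h5
    have h6 : chk (fun j => Nat.beq (zf t m (evC y j)) (yi i (zf t m j))) 24 = true :=
      Acts.chk_of_eq (hA.mul Y_acts) ((Y_pow_acts i).mul hA) hi
    have h7 := List.all_eq_true.1 hall m hm
    rw [h6] at h7
    exact absurd h7 (by decide)

/-! ### the last level -/

/-- the codes of the elements of the centraliser of the standard element fixing `0,..,4` -/
def C48 : List ℕ := L48c.filter (fun m => commOK m y)

theorem C48_length : C48.length = 2 := by decide +kernel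

theorem mem_H_iff {c : Equiv.Perm GolayPt} :
    c ∈ cen Y ⊓ MulAction.stabilizer (Equiv.Perm GolayPt) (pt 0) ↔
      ∃ m ∈ C48, c = tabPermD (decodeTab m) := by
  constructor
  · rintro ⟨hcC, hc0⟩
    have hc0' : c (pt 0) = pt 0 := hc0
    have hi : c * Y = Y ^ 1 * c := by rw [pow_one]; exact hcC.2
    have hfix : c ∈ fixG 31 := by
      refine ⟨hcC.1, ?_⟩
      intro q hq
      rw [testBit_31] at hq
      have hq5 : idx q < 5 := by simpa using hq
      have := nrm_pt hi hc0' hq5
      rwa [Nat.one_mul, Y_line _ hq5, pt_idx] at this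
    obtain ⟨m, hm, hv, rfl⟩ := fixG_31_enum_c hfix
    refine ⟨m, ?_, (tabPermD_eq hv).symm⟩
    unfold C48
    rw [List.mem_filter]
    exact ⟨hm, (comm_iff_of_acts (acts_code m hv) Y_acts).1 hcC.2⟩
  · rintro ⟨m, hm, rfl⟩
    unfold C48 at hm
    rw [List.mem_filter] at hm
    obtain ⟨hv, hfix⟩ := L48c_valid hm.1
    rw [tabPermD_eq hv]
    refine ⟨⟨hfix.1, (comm_iff_of_acts (acts_code m hv) Y_acts).2 hm.2⟩, ?_⟩
    exact hfix.2 (pt 0) (by rw [idx_pt (by norm_num)]; decide)

theorem card_H : Nat.card (cen Y ⊓ MulAction.stabilizer (Equiv.Perm GolayPt) (pt 0) :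
    Subgroup (Equiv.Perm GolayPt)) = 2 := by
  have hset : ((cen Y ⊓ MulAction.stabilizer (Equiv.Perm GolayPt) (pt 0) :
      Subgroup (Equiv.Perm GolayPt)) : Set (Equiv.Perm GolayPt)) =
      (fun m => tabPermD (decodeTab m)) '' ((C48.toFinset : Finset ℕ) : Set ℕ) := by
    ext c
    rw [SetLike.mem_coe, mem_H_iff, Set.mem_image]
    constructor
    · rintro ⟨m, hm, rfl⟩
      exact ⟨m, by simpa using hm, rfl⟩
    · rintro ⟨m, hm, rfl⟩
      exact ⟨m, by simpa using hm, rfl⟩
  have hinj : Set.InjOn (fun m => tabPermD (decodeTab m)) ((C48.toFinset : Finset ℕ) : Set ℕ) := by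
    intro a ha b hb e
    have ha' : a ∈ L48c := (List.mem_filter.1 (by simpa using ha : a ∈ C48)).1
    have hb' : b ∈ L48c := (List.mem_filter.1 (by simpa using hb : b ∈ C48)).1
    obtain ⟨hva, -⟩ := L48c_valid ha'
    obtain ⟨hvb, -⟩ := L48c_valid hb'
    have e' : tabPerm (decodeTab a) hva = tabPerm (decodeTab b) hvb := by
      rw [← tabPermD_eq hva, ← tabPermD_eq hvb]; exact e
    exact List.inj_on_of_nodup_map L48c_map_nodup ha' hb' (tabPerm_inj hva hvb e')
  have h1 : Nat.card (cen Y ⊓ MulAction.stabilizer (Equiv.Perm GolayPt) (pt 0) :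
      Subgroup (Equiv.Perm GolayPt)) =
      ((cen Y ⊓ MulAction.stabilizer (Equiv.Perm GolayPt) (pt 0) :
      Subgroup (Equiv.Perm GolayPt)) : Set (Equiv.Perm GolayPt)).ncard := (Nat.card_coe_set_eq _)
  have hnd : C48.Nodup := L48c_nodup.filter _
  rw [h1, hset, Set.InjOn.ncard_image hinj, Set.ncard_coe_finset,
    List.toFinset_card_of_nodup hnd, C48_length]

theorem nrm_stab_eq : nrm Y ⊓ MulAction.stabilizer (Equiv.Perm GolayPt) (pt 0) ⊓
    MulAction.stabilizer (Equiv.Perm GolayPt) (pt 1) =
    cen Y ⊓ MulAction.stabilizer (Equiv.Perm GolayPt) (pt 0) := by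
  apply le_antisymm
  · rintro c ⟨⟨hcN, hc0⟩, hc1⟩
    have hc0' : c (pt 0) = pt 0 := hc0
    have hc1' : c (pt 1) = pt 1 := hc1
    obtain ⟨i, hi0, hip, hi⟩ := nrm_exp (by norm_num) Y_pow Y_ne_one hcN
    have h1 : c (pt 1) = pt (yi i 0) := by
      have := nrm_pt hi hc0' (k := 1) (by norm_num)
      rwa [Nat.mul_one] at this
    have h2 : (Y ^ i) (pt 0) = Y (pt 0) := by
      rw [Y_pow_pt0, ← h1, hc1']
      have := Y_pow_pt0 1
      rw [pow_one, Y_line 1 (by norm_num)] at this
      exact this.symm
    have h3 : (Y ^ (i - 1)) (pt 0) = pt 0 := by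
      have e : Y ^ i = Y * Y ^ (i - 1) := by rw [← pow_succ']; congr 1; omega
      rw [e, Equiv.Perm.mul_apply] at h2
      exact Y.injective h2
    have hi1 : i = 1 := by
      by_contra hne
      exact Y_free (i - 1) (by omega) (by omega) h3
    rw [hi1, pow_one] at hi
    exact ⟨⟨(mem_nrm.1 hcN).1, hi⟩, hc0⟩
  · intro c hc
    obtain ⟨m, hm, rfl⟩ := mem_H_iff.1 hc
    unfold C48 at hm
    rw [List.mem_filter] at hm
    obtain ⟨hv, hfix⟩ := L48c_valid hm.1
    rw [tabPermD_eq hv]
    refine ⟨⟨cen_le_nrm Y ⟨hfix.1, (comm_iff_of_acts (acts_code m hv) Y_acts).2 hm.2⟩, ?_⟩, ?_⟩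
    · exact hfix.2 (pt 0) (by rw [idx_pt (by norm_num)]; decide)
    · exact hfix.2 (pt 1) (by rw [idx_pt (by norm_num)]; decide)

/-- the normaliser in `M24` of the standard subgroup of order `7` has order `126` -/
theorem card_nrm_Y : Nat.card (nrm Y) = 126 := by
  have h1 := card_eq_card_mul (nrm Y) (pt 0) (suppMask mv) (fun c hc => nrm_pt0 hc)
    (fun q hq => by
      obtain ⟨c, hc, -, e⟩ := lev0_spec hq
      exact ⟨c, hc, e⟩)
  have h2 := card_eq_card_mul (nrm Y ⊓ MulAction.stabilizer (Equiv.Perm GolayPt) (pt 0)) (pt 1)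
    (suppMask o1) (fun c hc => lev1_sub hc)
    (fun q hq => by
      obtain ⟨c, hc, -, e0, e1⟩ := lev1_spec hq
      exact ⟨c, ⟨hc, e0⟩, e1⟩)
  have h3 : pcI 24 mv = 21 := by rw [← pc24_eq]; decide +kernel
  have h4 : pcI 24 o1 = 3 := by rw [← pc24_eq]; decide +kernel
  rw [h1, h2, nrm_stab_eq, card_H, card_suppMask, card_suppMask, h3, h4]

/-- the element of `↥M24` given by the standard element -/
noncomputable def Ys : ↥M24 := ⟨Y, Y_mem⟩

theorem Ys_order : orderOf Ys = 7 := by
  rw [← Y_order]
  exact (orderOf_injective (Subgroup.subtype M24) (Subgroup.subtype_injective M24) Ys).symm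

theorem fac_M24 : (Nat.card ↥M24).factorization 7 = 1 := by
  rw [card_M24]
  decide +kernel

/-- every subgroup of order `7` of `↥M24` has a normaliser of order `126` -/
theorem card_normalizer (S : Subgroup ↥M24) (hS : Nat.card S = 7) :
    Nat.card (Subgroup.normalizer (S : Set ↥M24)) = 126 := by
  have : Fact (Nat.Prime 7) := ⟨by norm_num⟩
  obtain ⟨g, rfl⟩ := exists_conj_gen fac_M24 Ys Ys_order S hS
  rw [card_normalizer_zpowers]
  have e : ((g * Ys * g⁻¹ : ↥M24) : Equiv.Perm GolayPt) =
      (g : Equiv.Perm GolayPt) * Y * (g : Equiv.Perm GolayPt)⁻¹ := rfl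
  rw [e, card_nrm_conj g.2, card_nrm_Y]

/-! ### the centraliser -/

/-- elements of the centraliser moving the point `0` to each moved point -/
def WC : List ℕ := [1383171691763700179920714943059671, 44261771898038377462415053473361618, 87148863793088166740705546664590024, 130306902231196182740425854236767763, 182136092023045981625755918195267089, 216273198084455471517341081069956338, 274603080235485220436554859218020866, 0, 344856030723591877420216277526434022, 401569825210441204754507614019322563, 415426996823058838568663961838145044, 476051313302217568972690478289423052, 511442612715509995466588885687509707, 546757414695902072453232871725273600, 612133635875772559716301429468008138, 649571044151565214137334359097248268, 0, 726451474078511540745895600496870916, 758467483748467697349574811185069285, 811930750878581731708470404049011203, 847853644888964419952962397092062446, 887182484443525992919975378074306244, 0, 979084723579818285845486406379115200]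

/-- if `j` is a moved point then `w` lies in the centraliser and moves `0` to `j` -/
def levC (j w : ℕ) : Bool :=
  or (Nat.beq (Nat.land (Nat.shiftRight mv j) 1) 0)
    (and (inM24c w) (and (commOK w y) (Nat.beq (evC w 0) j)))

set_option maxRecDepth 100000 in
theorem levC_check : chkL levC WC 0 = true := by decide +kernel

theorem WC_length : WC.length = 24 := by decide

theorem levC_spec {q : GolayPt} (hq : q ∈ suppMask mv) : ∃ c ∈ cen Y, c (pt 0) = q := by
  have hi : idx q < WC.length := by rw [WC_length]; exact idx_lt q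
  have h := chkL_spec levC WC 0 levC_check (idx q) hi
  unfold levC at h
  rw [Bool.or_eq_true] at h
  rcases h with h | h
  · exfalso
    rw [mem_suppMask] at hq
    rcases bit_cases mv (0 + idx q) with ⟨h1, _⟩ | ⟨_, h2⟩
    · rw [Nat.zero_add, hq] at h1
      exact absurd h1 (by decide)
    · rw [h2] at h
      exact absurd h (by decide)
  · rw [Bool.and_eq_true, Bool.and_eq_true] at h
    obtain ⟨hM, hc, he⟩ := h
    obtain ⟨hv, hmem⟩ := inM24c_spec hM
    refine ⟨tabPerm (decodeTab WC[idx q]) hv,
      ⟨hmem, (comm_iff_of_acts (acts_code _ hv) Y_acts).2 hc⟩, ?_⟩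
    rw [tabPerm_decode_pt _ hv (by norm_num), Nat.eq_of_beq_eq_true he, Nat.zero_add, pt_idx]

/-- the centraliser in `M24` of the standard element of order `7` has order `42` -/
theorem card_cen_Y : Nat.card (cen Y) = 42 := by
  have h1 := card_eq_card_mul (cen Y) (pt 0) (suppMask mv)
    (fun c hc => nrm_pt0 (cen_le_nrm Y hc)) (fun q hq => levC_spec hq)
  have h3 : pcI 24 mv = 21 := by rw [← pc24_eq]; decide +kernel
  rw [h1, card_H, card_suppMask, h3]

/-- two elements of the centraliser that do not commute -/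
def nc1 : ℕ := 1383187862291716020833751290824205
/-- two elements of the centraliser that do not commute -/
def nc2 : ℕ := 216273198084455471517341081069956338

theorem nc_check : and (inM24c nc1) (and (inM24c nc2) (and (commOK nc1 y) (and (commOK nc2 y)
    (not (commOK nc1 nc2))))) = true := by decide +kernel

theorem cen_Y_nonabelian : ∃ a ∈ cen Y, ∃ b ∈ cen Y, a * b ≠ b * a := by
  have h := nc_check
  rw [Bool.and_eq_true, Bool.and_eq_true, Bool.and_eq_true, Bool.and_eq_true] at h
  obtain ⟨h1, h2, h3, h4, h5⟩ := h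
  obtain ⟨hv1, hm1⟩ := inM24c_spec h1
  obtain ⟨hv2, hm2⟩ := inM24c_spec h2
  refine ⟨tabPerm (decodeTab nc1) hv1, ⟨hm1, (comm_iff_of_acts (acts_code _ hv1) Y_acts).2 h3⟩,
    tabPerm (decodeTab nc2) hv2, ⟨hm2, (comm_iff_of_acts (acts_code _ hv2) Y_acts).2 h4⟩, ?_⟩
  intro e
  have h6 := (comm_iff_of_acts (acts_code _ hv1) (acts_code _ hv2)).1 e
  have h7 : commOK nc1 nc2 = true := h6
  rw [h7] at h5
  exact absurd h5 (by decide)

/-! ### the normaliser preserves the trio -/

theorem C48_tr : C48.all trOK = true := by decide +kernel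

theorem nrm_Y_le : nrm Y ≤ MulAction.stabilizer (Equiv.Perm GolayPt) T0 := by
  apply le_of_transversal (pt 0)
  · intro σ hσ
    obtain ⟨c, hc, hT, e⟩ := lev0_spec (nrm_pt0 hσ)
    exact ⟨c, hc, hT, e⟩
  · apply le_of_transversal (pt 1)
    · intro σ hσ
      obtain ⟨c, hc, hT, e0, e1⟩ := lev1_spec (lev1_sub hσ)
      exact ⟨c, ⟨hc, e0⟩, hT, e1⟩
    · rw [nrm_stab_eq]
      intro c hc
      obtain ⟨m, hm, rfl⟩ := mem_H_iff.1 hc
      have hm' : m ∈ L48c := by
        unfold C48 at hm
        exact (List.mem_filter.1 hm).1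
      obtain ⟨hv, -⟩ := L48c_valid hm'
      rw [tabPermD_eq hv]
      exact smul_T0_of_trOK hv (List.all_eq_true.1 C48_tr m hm)

theorem nrm_Y_T0 {c : Equiv.Perm GolayPt} (hc : c ∈ nrm Y) : c • T0 = T0 := nrm_Y_le hc

/-- the normaliser and centraliser of a conjugate of the standard element of order `7` -/
theorem nrm_conj_Y {k : Equiv.Perm GolayPt} (hk : k ∈ M24) :
    Nat.card (nrm (k * Y * k⁻¹)) = 126 ∧ Nat.card (cen (k * Y * k⁻¹)) = 42 ∧
    (∃ a ∈ cen (k * Y * k⁻¹), ∃ b ∈ cen (k * Y * k⁻¹), a * b ≠ b * a) ∧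
    ∃ T ∈ trios, ∀ c ∈ nrm (k * Y * k⁻¹), c • T = T := by
  have hki : k⁻¹ ∈ M24 := Subgroup.inv_mem _ hk
  have e' : k⁻¹ * (k * Y * k⁻¹) * k⁻¹⁻¹ = Y := by group
  refine ⟨by rw [card_nrm_conj hk, card_nrm_Y], by rw [card_cen_conj hk, card_cen_Y], ?_, ?_⟩
  · obtain ⟨a, ha, b, hb, hab⟩ := cen_Y_nonabelian
    refine ⟨k * a * k⁻¹, cen_conj_mem hk ha, k * b * k⁻¹, cen_conj_mem hk hb, ?_⟩
    intro e
    apply hab
    have e2 : k * (a * b) * k⁻¹ = k * (b * a) * k⁻¹ := by
      calc k * (a * b) * k⁻¹ = k * a * k⁻¹ * (k * b * k⁻¹) := by group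
        _ = k * b * k⁻¹ * (k * a * k⁻¹) := e
        _ = k * (b * a) * k⁻¹ := by group
    exact mul_left_cancel (mul_right_cancel e2)
  · refine ⟨k • T0, smul_mem_trios' hk T0_mem, ?_⟩
    intro c hc
    have h1 := nrm_conj_mem hki hc
    rw [e', inv_inv] at h1
    have h2 := nrm_Y_T0 h1
    have h3 : c • k • T0 = k • ((k⁻¹ * c * k) • T0) := by
      rw [← mul_smul, ← mul_smul]
      congr 1
      group
    rw [h3, h2]

end Cfsg.Agent.Lib.Helper6.N7
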