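import Mathlib
import Cfsg.Agent.Lib.Helper6.M12Sub
import Cfsg.Agent.Lib.Helper6.M12Enum
import Cfsg.Agent.Lib.Helper7.GolaySimple

set_option autoImplicit false

/-! # The three-point stabiliser of the dodecad stabiliser (`3^2 : Q_8`) -/

namespace Cfsg.Agent.Lib.Helper6.M12

open Cfsg Cfsg.Agent.Lib.Helper6.Golay Cfsg.Agent.Lib.Helper6.M24
open scoped Pointwise

/-! ### a criterion from counting -/

/-- a group of order `72` in which the elements of order dividing `9` have cube `1`, at most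
nine elements have cube `1`, and which contains a quaternion group, has a normal elementary
Sylow 3-subgroup and quaternion Sylow 2-subgroups -/
theorem sylow_of_card_72 {H : Type*} [Group H] [Finite H] (hcard : Nat.card H = 72)
    (h9 : ∀ x : H, x ^ 9 = 1 → x ^ 3 = 1) (h3 : {x : H | x ^ 3 = 1}.ncard ≤ 9)
    (f : QuaternionGroup 2 →* H) (hf : Function.Injective f) :
    (∀ Q : Sylow 3 H, (Q : Subgroup H).Normal ∧ Nat.card Q = 9 ∧
      ∀ x ∈ (Q : Subgroup H), x ^ 3 = 1) ∧
    ∀ P : Sylow 2 H, Nonempty (P ≃* QuaternionGroup 2) := by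
  have hp2 : Fact (Nat.Prime 2) := ⟨Nat.prime_two⟩
  have hp3 : Fact (Nat.Prime 3) := ⟨Nat.prime_three⟩
  constructor
  · intro Q
    have hQ : Nat.card Q = 9 := by
      rw [Sylow.card_eq_multiplicity, hcard]
      have : (72 : ℕ).factorization 3 = 2 := by decide +kernel
      rw [this]; norm_num
    have hQ3 : ∀ x ∈ (Q : Subgroup H), x ^ 3 = 1 := by
      intro x hx
      apply h9
      have h1 : (⟨x, hx⟩ : (Q : Subgroup H)) ^ Nat.card (Q : Subgroup H) = 1 := pow_card_eq_one'
      rw [hQ] at h1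
      exact congrArg Subtype.val h1
    have hset : ((Q : Subgroup H) : Set H) = {x : H | x ^ 3 = 1} := by
      apply Set.eq_of_subset_of_ncard_le (fun x hx => hQ3 x hx) _ (Set.toFinite _)
      have h2 : ((Q : Subgroup H) : Set H).ncard = 9 := by
        rw [← hQ]; exact (Nat.card_coe_set_eq _).symm
      rw [h2]; exact h3
    refine ⟨⟨fun x hx g => ?_⟩, hQ, hQ3⟩
    have h4 : g * x * g⁻¹ ∈ ((Q : Subgroup H) : Set H) := by
      rw [hset]
      show (g * x * g⁻¹) ^ 3 = 1
      rw [conj_pow, hQ3 x hx]; simp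
    exact h4
  · intro P
    have hr : Nat.card f.range = 8 := by
      rw [← Nat.card_congr (MonoidHom.ofInjective hf).toEquiv, Nat.card_eq_fintype_card,
        QuaternionGroup.card]
    have hfac : (72 : ℕ).factorization 2 = 3 := by decide +kernel
    let P0 : Sylow 2 H := Sylow.ofCard f.range (by rw [hr, hcard, hfac]; norm_num)
    exact ⟨(P.equiv P0).trans (MonoidHom.ofInjective hf).symm⟩

/-! ### enumeration of the standard three-point stabiliser -/

theorem mem_fixG_7 {σ : Equiv.Perm GolayPt} :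
    σ ∈ fixG 7 ↔ σ ∈ M24 ∧ σ (pt 0) = pt 0 ∧ σ (pt 1) = pt 1 ∧ σ (pt 2) = pt 2 := by
  have e : fixG 7 = fixG (((0 ||| 2 ^ 0) ||| 2 ^ 1) ||| 2 ^ 2) := rfl
  rw [e, fixG_or _ (by norm_num), fixG_or _ (by norm_num), fixG_or _ (by norm_num), fixG_zero]
  simp only [Subgroup.mem_inf, MulAction.mem_stabilizer_iff]
  exact ⟨fun h => ⟨h.1.1.1, h.1.1.2, h.1.2, h.2⟩, fun h => ⟨⟨⟨h.1, h.2.1⟩, h.2.2.1⟩, h.2.2.2⟩⟩

/-- every element of `M24` preserving `D0` and fixing `0,1,2` is a product of two listed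
elements -/
theorem stG_D0_7_enum {σ : Equiv.Perm GolayPt} (hσ : σ ∈ stG D0 7) :
    ∃ u ∈ U9, ∃ c ∈ Q8c, ∃ (hu : tabValid (decodeTab u) = true)
      (hc : tabValid (decodeTab c) = true),
      σ = tabPerm (decodeTab u) hu * tabPerm (decodeTab c) hc := by
  obtain ⟨u, hum, hu, h2⟩ := stG_step (b := 3) (by norm_num) (by decide +kernel) U9_ok hσ
  have h3 := mem_stabCodes h2.1 D0_lt h2.2
  rw [Q8c_eq, List.mem_toFinset, List.mem_map] at h3
  obtain ⟨c, hcm, hceq⟩ := h3
  have hcL : c ∈ L960c := by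
    rw [← Q8c_eq] at hcm
    exact (List.mem_filter.1 hcm).1
  have hc := goodTab_valid (goodCode_spec (List.all_eq_true.1 L960c_good c hcL))
  rw [tabPermD_eq hc] at hceq
  refine ⟨u, hum, c, hcm, hu, hc, ?_⟩
  rw [hceq]; group

/-- the image of a point under a product of two coded elements -/
def ev2 (u c j : ℕ) : ℕ := evC u (evC c j)

/-- the image of a point under a power of a product of two coded elements -/
def itN (u c : ℕ) : ℕ → ℕ → ℕ
  | 0, j => j
  | k + 1, j => ev2 u c (itN u c k j)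

theorem pow_pt (u c : ℕ) (hu : tabValid (decodeTab u) = true)
    (hc : tabValid (decodeTab c) = true) (k : ℕ) {j : ℕ} (hj : j < 24) :
    ((tabPerm (decodeTab u) hu * tabPerm (decodeTab c) hc) ^ k) (pt j) = pt (itN u c k j) ∧
      itN u c k j < 24 := by
  induction k with
  | zero => exact ⟨rfl, hj⟩
  | succ k ih =>
    obtain ⟨ih1, ih2⟩ := ih
    refine ⟨?_, evC_lt u hu (evC_lt c hc ih2)⟩
    rw [pow_succ', Equiv.Perm.mul_apply, ih1]
    show tabPerm (decodeTab u) hu (tabPerm (decodeTab c) hc (pt (itN u c k j))) = _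
    rw [tabPerm_decode_pt c hc ih2, tabPerm_decode_pt u hu (evC_lt c hc ih2)]
    rfl

/-- the `k`-th power of the product is trivial -/
def powOK (u c k : ℕ) : Bool := (List.range 24).all (fun j => Nat.beq (itN u c k j) j)

theorem powOK_iff (u c : ℕ) (hu : tabValid (decodeTab u) = true)
    (hc : tabValid (decodeTab c) = true) (k : ℕ) :
    powOK u c k = true ↔ (tabPerm (decodeTab u) hu * tabPerm (decodeTab c) hc) ^ k = 1 := by
  unfold powOK
  rw [List.all_eq_true]
  constructor
  · intro h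
    apply Equiv.ext
    intro p
    have hj := idx_lt p
    have h1 := (pow_pt u c hu hc k hj).1
    rw [Nat.eq_of_beq_eq_true (h (idx p) (List.mem_range.2 hj)), pt_idx] at h1
    rw [h1]; rfl
  · intro h j hj
    have hj' := List.mem_range.1 hj
    obtain ⟨h1, h2⟩ := pow_pt u c hu hc k hj'
    rw [h] at h1
    have h3 : pt j = pt (itN u c k j) := h1
    rw [← pt_inj hj' h2 h3]
    exact Nat.beq_refl _

set_option maxRecDepth 100000 in
theorem nine_check :
    U9.all (fun u => Q8c.all (fun c => or (not (powOK u c 9)) (powOK u c 3))) = true := by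
  decide +kernel

/-- the element of `Q8c` making the product with `u` of order dividing three -/
def cOf (u : ℕ) : ℕ := (Q8c.filter (fun c => powOK u c 3)).headD 0

set_option maxRecDepth 100000 in
theorem cube_check :
    U9.all (fun u => Q8c.all (fun c => or (not (powOK u c 3)) (Nat.beq c (cOf u)))) = true := by
  decide +kernel

theorem stG7_pow_nine {σ : Equiv.Perm GolayPt} (hσ : σ ∈ stG D0 7) (h : σ ^ 9 = 1) :
    σ ^ 3 = 1 := by
  obtain ⟨u, hum, c, hcm, hu, hc, rfl⟩ := stG_D0_7_enum hσ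
  have h1 := List.all_eq_true.1 (List.all_eq_true.1 nine_check u hum) c hcm
  rw [Bool.or_eq_true] at h1
  rw [← powOK_iff] at h ⊢
  rcases h1 with h1 | h1
  · rw [h] at h1; exact absurd h1 (by decide)
  · exact h1

theorem stG7_cube_subset :
    {σ : Equiv.Perm GolayPt | σ ∈ stG D0 7 ∧ σ ^ 3 = 1} ⊆
      ↑(U9.toFinset.image
        (fun u => tabPermD (decodeTab u) * tabPermD (decodeTab (cOf u)))) := by
  rintro σ ⟨hσ, h⟩
  obtain ⟨u, hum, c, hcm, hu, hc, rfl⟩ := stG_D0_7_enum hσ
  have h1 := List.all_eq_true.1 (List.all_eq_true.1 cube_check u hum) c hcm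
  rw [Bool.or_eq_true] at h1
  rw [← powOK_iff] at h
  rcases h1 with h1 | h1
  · rw [h] at h1; exact absurd h1 (by decide)
  · have h2 : c = cOf u := Nat.eq_of_beq_eq_true h1
    rw [Finset.mem_coe, Finset.mem_image]
    refine ⟨u, List.mem_toFinset.2 hum, ?_⟩
    show tabPermD (decodeTab u) * tabPermD (decodeTab (cOf u)) = _
    rw [← h2, tabPermD_eq hu, tabPermD_eq hc]

theorem stG7_cube_ncard : {σ : Equiv.Perm GolayPt | σ ∈ stG D0 7 ∧ σ ^ 3 = 1}.ncard ≤ 9 := by
  refine (Set.ncard_le_ncard stG7_cube_subset (Finset.finite_toSet _)).trans ?_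
  rw [Set.ncard_coe_finset]
  exact Finset.card_image_le.trans (List.toFinset_card_le U9)

theorem stG7_subset :
    ((stG D0 7 : Subgroup (Equiv.Perm GolayPt)) : Set (Equiv.Perm GolayPt)) ⊆
      ↑((U9.product Q8c).toFinset.image
        (fun uc : ℕ × ℕ => tabPermD (decodeTab uc.1) * tabPermD (decodeTab uc.2))) := by
  intro σ hσ
  obtain ⟨u, hum, c, hcm, hu, hc, rfl⟩ := stG_D0_7_enum hσ
  rw [Finset.mem_coe, Finset.mem_image]
  refine ⟨(u, c), List.mem_toFinset.2 (List.mem_product.2 ⟨hum, hcm⟩), ?_⟩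
  show tabPermD (decodeTab u) * tabPermD (decodeTab c) = _
  rw [tabPermD_eq hu, tabPermD_eq hc]

theorem stG7_card_le : Nat.card ↥(stG D0 7) ≤ 72 := by
  have h1 : Nat.card ↥(stG D0 7) =
      ((stG D0 7 : Subgroup (Equiv.Perm GolayPt)) : Set (Equiv.Perm GolayPt)).ncard :=
    Nat.card_coe_set_eq _
  rw [h1]
  refine (Set.ncard_le_ncard stG7_subset (Finset.finite_toSet _)).trans ?_
  rw [Set.ncard_coe_finset]
  exact Finset.card_image_le.trans (List.toFinset_card_le _)

/-! ### the quaternion group inside the standard three-point stabiliser -/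

/-- codes of the eight elements fixing `0,1,2,3`, arranged as a quaternion group -/
def qCode : QuaternionGroup 2 → ℕ
  | .a i => [1383171691763700179920714943059671, 1383657167336127205401679563506997,
      1383499749765229826440385494698705, 1383784666811287793804142161911090].getD i.val 0
  | .xa i => [1383692978344779907661304160341348, 1383858145120652549752738060513491,
      1383926960156657478755959535288684, 1383730629174394171165948731691216].getD i.val 0

set_option maxRecDepth 100000 in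
theorem qCode_stab : ∀ x : QuaternionGroup 2, stabCode 7 [D0] (qCode x) = true := by
  decide +kernel

set_option maxRecDepth 100000 in
theorem qCode_mul : ∀ x y : QuaternionGroup 2,
    (List.range 24).all (fun j =>
      Nat.beq (evC (qCode x) (evC (qCode y) j)) (evC (qCode (x * y)) j)) = true := by
  decide +kernel

set_option maxRecDepth 100000 in
theorem qCode_one : ∀ x : QuaternionGroup 2,
    (List.range 24).all (fun j => Nat.beq (evC (qCode x) j) j) = true → x = 1 := by
  decide +kernel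

theorem qCode_valid (x : QuaternionGroup 2) : tabValid (decodeTab (qCode x)) = true :=
  (stabCode_spec' (qCode_stab x)).1

theorem qCode_mem (x : QuaternionGroup 2) : tabPermD (decodeTab (qCode x)) ∈ stG D0 7 := by
  obtain ⟨hv, h1, h2⟩ := stabCode_spec' (qCode_stab x)
  rw [tabPermD_eq hv]
  exact ⟨h1, h2 D0 (by simp)⟩

/-- the quaternion group inside the standard three-point stabiliser -/
noncomputable def qHom : QuaternionGroup 2 →* ↥(stG D0 7) :=
  MonoidHom.mk' (fun x => ⟨tabPermD (decodeTab (qCode x)), qCode_mem x⟩) (by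
    intro x y
    apply Subtype.ext
    show tabPermD (decodeTab (qCode (x * y))) =
      tabPermD (decodeTab (qCode x)) * tabPermD (decodeTab (qCode y))
    rw [tabPermD_eq (qCode_valid x), tabPermD_eq (qCode_valid y),
      tabPermD_eq (qCode_valid (x * y))]
    apply Equiv.ext
    intro p
    have hj := idx_lt p
    have h1 := Nat.eq_of_beq_eq_true
      (List.all_eq_true.1 (qCode_mul x y) (idx p) (List.mem_range.2 hj))
    rw [← pt_idx p, Equiv.Perm.mul_apply, tabPerm_decode_pt _ (qCode_valid y) hj,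
      tabPerm_decode_pt _ (qCode_valid x) (evC_lt _ (qCode_valid y) hj),
      tabPerm_decode_pt _ (qCode_valid (x * y)) hj, h1])

theorem qHom_injective : Function.Injective qHom := by
  rw [injective_iff_map_eq_one]
  intro x hx
  apply qCode_one
  rw [List.all_eq_true]
  intro j hj
  have hj' := List.mem_range.1 hj
  have h1 : tabPermD (decodeTab (qCode x)) = 1 := congrArg Subtype.val hx
  rw [tabPermD_eq (qCode_valid x)] at h1
  have h2 := tabPerm_decode_pt _ (qCode_valid x) hj'
  rw [h1] at h2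
  have h3 : pt j = pt (evC (qCode x) j) := h2
  rw [← pt_inj hj' (evC_lt _ (qCode_valid x) hj') h3]
  exact Nat.beq_refl _

/-! ### transfer to a general dodecad with three marked points -/

theorem conj_mem_stG7 {d : Finset GolayPt} {p q r : GolayPt} {h : Equiv.Perm GolayPt}
    (hh : h ∈ M24) (hd : h • d = suppMask D0) (h0 : h p = pt 0) (h1 : h q = pt 1)
    (h2 : h r = pt 2) {x : M24}
    (hx : x ∈ MulAction.stabilizer M24 d ⊓ MulAction.stabilizer M24 p ⊓
      MulAction.stabilizer M24 q ⊓ MulAction.stabilizer M24 r) :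
    h * (x : Equiv.Perm GolayPt) * h⁻¹ ∈ stG D0 7 := by
  obtain ⟨⟨⟨hxd, hxp⟩, hxq⟩, hxr⟩ := hx
  have hxd' : d.image (x : Equiv.Perm GolayPt) = d := hxd
  have hxp' : (x : Equiv.Perm GolayPt) p = p := hxp
  have hxq' : (x : Equiv.Perm GolayPt) q = q := hxq
  have hxr' : (x : Equiv.Perm GolayPt) r = r := hxr
  have e0 : h⁻¹ (pt 0) = p := by rw [Equiv.Perm.inv_eq_iff_eq, h0]
  have e1 : h⁻¹ (pt 1) = q := by rw [Equiv.Perm.inv_eq_iff_eq, h1]
  have e2 : h⁻¹ (pt 2) = r := by rw [Equiv.Perm.inv_eq_iff_eq, h2]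
  refine ⟨mem_fixG_7.2 ⟨Subgroup.mul_mem _ (Subgroup.mul_mem _ hh x.2) (Subgroup.inv_mem _ hh),
    ?_, ?_, ?_⟩, maps_conj hd hxd'⟩
  · show h ((x : Equiv.Perm GolayPt) (h⁻¹ (pt 0))) = pt 0
    rw [e0, hxp', h0]
  · show h ((x : Equiv.Perm GolayPt) (h⁻¹ (pt 1))) = pt 1
    rw [e1, hxq', h1]
  · show h ((x : Equiv.Perm GolayPt) (h⁻¹ (pt 2))) = pt 2
    rw [e2, hxr', h2]

theorem conj_inv_mem_stab {d : Finset GolayPt} {p q r : GolayPt} {h : Equiv.Perm GolayPt}
    (hd : h • d = suppMask D0) (h0 : h p = pt 0) (h1 : h q = pt 1)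
    (h2 : h r = pt 2) {y : Equiv.Perm GolayPt} (hy : y ∈ stG D0 7)
    (hM : h⁻¹ * y * h ∈ M24) :
    (⟨h⁻¹ * y * h, hM⟩ : M24) ∈ MulAction.stabilizer M24 d ⊓ MulAction.stabilizer M24 p ⊓
      MulAction.stabilizer M24 q ⊓ MulAction.stabilizer M24 r := by
  obtain ⟨hy1, hy2⟩ := hy
  obtain ⟨-, y0, y1, y2⟩ := mem_fixG_7.1 hy1
  have hyD : y • suppMask D0 = suppMask D0 := hy2.image
  refine ⟨⟨⟨?_, ?_⟩, ?_⟩, ?_⟩
  · show (h⁻¹ * y * h) • d = d
    rw [mul_smul, mul_smul, hd, hyD, inv_smul_eq_iff, hd]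
  · show h⁻¹ (y (h p)) = p
    rw [h0, y0, Equiv.Perm.inv_eq_iff_eq, h0]
  · show h⁻¹ (y (h q)) = q
    rw [h1, y1, Equiv.Perm.inv_eq_iff_eq, h1]
  · show h⁻¹ (y (h r)) = r
    rw [h2, y2, Equiv.Perm.inv_eq_iff_eq, h2]

/-- the stabiliser of a dodecad and three of its points is isomorphic to the standard one -/
theorem stab3_equiv {d : Finset GolayPt} (hd : d ∈ dodecads) {p q r : GolayPt} (hp : p ∈ d)
    (hq : q ∈ d) (hr : r ∈ d) (hpq : p ≠ q) (hpr : p ≠ r) (hqr : q ≠ r) :
    Nonempty (↥(MulAction.stabilizer M24 d ⊓ MulAction.stabilizer M24 p ⊓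
      MulAction.stabilizer M24 q ⊓ MulAction.stabilizer M24 r) ≃* ↥(stG D0 7)) := by
  let z : Fin 3 ↪ GolayPt :=
    Cfsg.Agent.Lib.Helper7.embOfList [p, q, r] (by simp [hpq, hpr, hqr])
  have hz : ∀ i, z i ∈ d := by
    intro i
    fin_cases i
    · exact hp
    · exact hq
    · exact hr
  obtain ⟨h, hh, hdh, hpts⟩ := exists_std_n hd (m := 3) (by norm_num) z hz
  have h0 : h p = pt 0 := hpts 0
  have h1 : h q = pt 1 := hpts 1
  have h2 : h r = pt 2 := hpts 2
  have hMy : ∀ y : ↥(stG D0 7), h⁻¹ * (y : Equiv.Perm GolayPt) * h ∈ M24 := fun y =>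
    Subgroup.mul_mem _ (Subgroup.mul_mem _ (Subgroup.inv_mem _ hh) y.2.1.1) hh
  exact ⟨
    { toFun := fun x => ⟨h * ((x : M24) : Equiv.Perm GolayPt) * h⁻¹,
        conj_mem_stG7 hh hdh h0 h1 h2 x.2⟩
      invFun := fun y => ⟨⟨h⁻¹ * (y : Equiv.Perm GolayPt) * h, hMy y⟩,
        conj_inv_mem_stab hdh h0 h1 h2 y.2 (hMy y)⟩
      left_inv := by
        intro x
        apply Subtype.ext
        apply Subtype.ext
        show h⁻¹ * (h * ((x : M24) : Equiv.Perm GolayPt) * h⁻¹) * h = _
        group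
      right_inv := by
        intro y
        apply Subtype.ext
        show h * (h⁻¹ * (y : Equiv.Perm GolayPt) * h) * h⁻¹ = _
        group
      map_mul' := by
        intro x y
        apply Subtype.ext
        show h * (((x : M24) : Equiv.Perm GolayPt) * ((y : M24) : Equiv.Perm GolayPt)) * h⁻¹ =
          h * ((x : M24) : Equiv.Perm GolayPt) * h⁻¹ *
            (h * ((y : M24) : Equiv.Perm GolayPt) * h⁻¹)
        group }⟩

/-- the stabiliser of a dodecad and three of its points has at least `72` elements -/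
theorem card_stab3_ge {d : Finset GolayPt} (hd : d ∈ dodecads) {p q r : GolayPt} (hp : p ∈ d)
    (hq : q ∈ d) (hr : r ∈ d) (hpq : p ≠ q) (hpr : p ≠ r) (hqr : q ≠ r) :
    72 ≤ Nat.card ↥(MulAction.stabilizer M24 d ⊓ MulAction.stabilizer M24 p ⊓
      MulAction.stabilizer M24 q ⊓ MulAction.stabilizer M24 r) := by
  have c1 := card_stab_dodecad_point hd hp
  have e1 := card_stabilizer_point (MulAction.stabilizer M24 d ⊓ MulAction.stabilizer M24 p) q
  have e2 := card_stabilizer_point (MulAction.stabilizer M24 d ⊓ MulAction.stabilizer M24 p ⊓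
    MulAction.stabilizer M24 q) r
  rw [c1] at e1
  have o1 : (MulAction.orbit ↥(MulAction.stabilizer M24 d ⊓ MulAction.stabilizer M24 p) q).ncard
      ≤ 11 := by
    have hsub : MulAction.orbit ↥(MulAction.stabilizer M24 d ⊓ MulAction.stabilizer M24 p) q ⊆
        ↑(d.erase p) := by
      rintro _ ⟨g, rfl⟩
      have hgp : ((g : M24) : Equiv.Perm GolayPt) p = p := g.2.2
      rw [Finset.mem_coe, Finset.mem_erase]
      refine ⟨fun e => hpq ?_, (stab_mem_iff g.2.1 q).2 hq⟩
      have e' : ((g : M24) : Equiv.Perm GolayPt) q = ((g : M24) : Equiv.Perm GolayPt) p :=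
        e.trans hgp.symm
      exact (((g : M24) : Equiv.Perm GolayPt).injective e').symm
    refine (Set.ncard_le_ncard hsub (Finset.finite_toSet _)).trans ?_
    rw [Set.ncard_coe_finset, Finset.card_erase_of_mem hp, card_of_mem_dodecads hd]
  have o2 : (MulAction.orbit ↥(MulAction.stabilizer M24 d ⊓ MulAction.stabilizer M24 p ⊓
      MulAction.stabilizer M24 q) r).ncard ≤ 10 := by
    have hsub : MulAction.orbit ↥(MulAction.stabilizer M24 d ⊓ MulAction.stabilizer M24 p ⊓
        MulAction.stabilizer M24 q) r ⊆ ↑((d.erase p).erase q) := by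
      rintro _ ⟨g, rfl⟩
      have hgp : ((g : M24) : Equiv.Perm GolayPt) p = p := g.2.1.2
      have hgq : ((g : M24) : Equiv.Perm GolayPt) q = q := g.2.2
      rw [Finset.mem_coe, Finset.mem_erase, Finset.mem_erase]
      refine ⟨fun e => hqr ?_, fun e => hpr ?_, (stab_mem_iff g.2.1.1 r).2 hr⟩
      · have e' : ((g : M24) : Equiv.Perm GolayPt) r = ((g : M24) : Equiv.Perm GolayPt) q :=
          e.trans hgq.symm
        exact (((g : M24) : Equiv.Perm GolayPt).injective e').symm
      · have e' : ((g : M24) : Equiv.Perm GolayPt) r = ((g : M24) : Equiv.Perm GolayPt) p :=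
          e.trans hgp.symm
        exact (((g : M24) : Equiv.Perm GolayPt).injective e').symm
    refine (Set.ncard_le_ncard hsub (Finset.finite_toSet _)).trans ?_
    rw [Set.ncard_coe_finset, Finset.card_erase_of_mem (Finset.mem_erase.2 ⟨hpq.symm, hq⟩),
      Finset.card_erase_of_mem hp, card_of_mem_dodecads hd]
  by_contra hc
  have h3 : Nat.card ↥(MulAction.stabilizer M24 d ⊓ MulAction.stabilizer M24 p ⊓
      MulAction.stabilizer M24 q) ≤ 10 * 71 := by
    rw [← e2]; exact Nat.mul_le_mul o2 (by omega)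
  have h4 : 7920 ≤ 11 * (10 * 71) := by
    rw [← e1]; exact Nat.mul_le_mul o1 h3
  omega

/-- the stabiliser of a dodecad and three of its points is `3^2 : Q_8` -/
theorem stab3_structure {d : Finset GolayPt} (hd : d ∈ dodecads) {p q r : GolayPt}
    (hp : p ∈ d) (hq : q ∈ d) (hr : r ∈ d) (hpq : p ≠ q) (hpr : p ≠ r) (hqr : q ≠ r) :
    (∀ Q : Sylow 3 ↥(MulAction.stabilizer M24 d ⊓ MulAction.stabilizer M24 p ⊓
        MulAction.stabilizer M24 q ⊓ MulAction.stabilizer M24 r),
      (Q : Subgroup ↥(MulAction.stabilizer M24 d ⊓ MulAction.stabilizer M24 p ⊓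
        MulAction.stabilizer M24 q ⊓ MulAction.stabilizer M24 r)).Normal ∧ Nat.card Q = 9 ∧
      ∀ x ∈ (Q : Subgroup ↥(MulAction.stabilizer M24 d ⊓ MulAction.stabilizer M24 p ⊓
        MulAction.stabilizer M24 q ⊓ MulAction.stabilizer M24 r)), x ^ 3 = 1) ∧
    ∀ P : Sylow 2 ↥(MulAction.stabilizer M24 d ⊓ MulAction.stabilizer M24 p ⊓
        MulAction.stabilizer M24 q ⊓ MulAction.stabilizer M24 r),
      Nonempty (P ≃* QuaternionGroup 2) := by
  obtain ⟨e⟩ := stab3_equiv hd hp hq hr hpq hpr hqr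
  have hge := card_stab3_ge hd hp hq hr hpq hpr hqr
  have hle : Nat.card ↥(MulAction.stabilizer M24 d ⊓ MulAction.stabilizer M24 p ⊓
      MulAction.stabilizer M24 q ⊓ MulAction.stabilizer M24 r) ≤ 72 := by
    rw [Nat.card_congr e.toEquiv]; exact stG7_card_le
  refine sylow_of_card_72 (le_antisymm hle hge) ?_ ?_ (e.symm.toMonoidHom.comp qHom)
    (e.symm.injective.comp qHom_injective)
  · intro x hx
    have h1 : (e x : Equiv.Perm GolayPt) ^ 9 = 1 := by
      rw [← Subgroup.coe_pow, ← map_pow, hx, map_one]; rfl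
    have h2 := stG7_pow_nine (e x).2 h1
    apply e.injective
    apply Subtype.ext
    rw [map_pow, map_one, Subgroup.coe_pow]
    exact h2
  · have hinj : Function.Injective
        (fun x : ↥(MulAction.stabilizer M24 d ⊓ MulAction.stabilizer M24 p ⊓
          MulAction.stabilizer M24 q ⊓ MulAction.stabilizer M24 r) =>
          (e x : Equiv.Perm GolayPt)) :=
      fun a b hab => e.injective (Subtype.ext hab)
    rw [← Set.ncard_image_of_injective _ hinj]
    refine (Set.ncard_le_ncard ?_ (Set.toFinite _)).trans stG7_cube_ncard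
    rintro _ ⟨x, hx, rfl⟩
    refine ⟨(e x).2, ?_⟩
    show (e x : Equiv.Perm GolayPt) ^ 3 = 1
    have hx' : x ^ 3 = 1 := hx
    rw [← Subgroup.coe_pow, ← map_pow, hx', map_one]; rfl

end Cfsg.Agent.Lib.Helper6.M12
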