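import Mathlib
import Cfsg.Prelude.Def_Classical
import Cfsg.Prelude.Def_KGroupFacts

/-!
# Cocycle model of extraspecial 2-groups and their outer automorphism groups

For a matrix `C` over `ZMod 2` indexed by `ι` the group `XC C` is `ZMod 2 × (ι → ZMod 2)` with
multiplication twisted by the bilinear cocycle `u ⬝ᵥ C *ᵥ v`.  When `C + Cᵀ` is the permutation
matrix of an involution `σ` this is an extraspecial group, and `Out (XC C)` is the isometry group
of the quadratic form `v ↦ v ⬝ᵥ C *ᵥ v`.
-/

set_option autoImplicit false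
set_option linter.unusedSectionVars false

namespace Cfsg.Agent.Lib.Helper6.OutES

open scoped commutatorElement
open Matrix

variable {ι : Type} [Fintype ι] [DecidableEq ι]

/-- the bilinear cocycle -/
def coc (C : Matrix ι ι (ZMod 2)) (u v : ι → ZMod 2) : ZMod 2 := u ⬝ᵥ (C *ᵥ v)

theorem coc_add_left (C : Matrix ι ι (ZMod 2)) (u v w : ι → ZMod 2) :
    coc C (u + v) w = coc C u w + coc C v w := by
  unfold coc; rw [add_dotProduct]

theorem coc_add_right (C : Matrix ι ι (ZMod 2)) (u v w : ι → ZMod 2) :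
    coc C u (v + w) = coc C u v + coc C u w := by
  unfold coc; rw [mulVec_add, dotProduct_add]

theorem coc_zero_left (C : Matrix ι ι (ZMod 2)) (w : ι → ZMod 2) : coc C 0 w = 0 := by
  unfold coc; rw [zero_dotProduct]

theorem coc_zero_right (C : Matrix ι ι (ZMod 2)) (w : ι → ZMod 2) : coc C w 0 = 0 := by
  unfold coc; rw [mulVec_zero, dotProduct_zero]

theorem coc_eq_sum (C : Matrix ι ι (ZMod 2)) (u v : ι → ZMod 2) :
    coc C u v = ∑ i, ∑ j, C i j * u i * v j := by
  unfold coc
  simp only [dotProduct, mulVec, Finset.mul_sum]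
  refine Finset.sum_congr rfl fun i _ => Finset.sum_congr rfl fun j _ => ?_
  ring

theorem zadd_self (a : ZMod 2) : a + a = 0 := CharTwo.add_self_eq_zero a

theorem vadd_self (v : ι → ZMod 2) : v + v = 0 := by
  funext i; exact CharTwo.add_self_eq_zero (v i)

/-- the model group -/
@[ext]
structure XC (C : Matrix ι ι (ZMod 2)) where
  e : ZMod 2
  v : ι → ZMod 2

variable {C : Matrix ι ι (ZMod 2)}

instance instMulXC : Mul (XC C) := ⟨fun a b => ⟨a.e + b.e + coc C a.v b.v, a.v + b.v⟩⟩
instance instOneXC : One (XC C) := ⟨⟨0, 0⟩⟩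
instance instInvXC : Inv (XC C) := ⟨fun a => ⟨a.e + coc C a.v a.v, a.v⟩⟩

theorem e_mul (a b : XC C) : (a * b).e = a.e + b.e + coc C a.v b.v := rfl
theorem v_mul (a b : XC C) : (a * b).v = a.v + b.v := rfl
theorem e_one : (1 : XC C).e = 0 := rfl
theorem v_one : (1 : XC C).v = 0 := rfl
theorem e_inv (a : XC C) : (a⁻¹).e = a.e + coc C a.v a.v := rfl
theorem v_inv (a : XC C) : (a⁻¹).v = a.v := rfl

instance instGroupXC : Group (XC C) := Group.ofLeftAxioms
  (by
    intro a b c
    apply XC.ext
    · simp only [e_mul, v_mul, coc_add_left, coc_add_right]; ring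
    · simp only [v_mul, add_assoc])
  (by
    intro a
    apply XC.ext
    · simp only [e_mul, e_one, v_one, coc_zero_left, zero_add, add_zero]
    · simp only [v_mul, v_one, zero_add])
  (by
    intro a
    apply XC.ext
    · simp only [e_mul, e_inv, v_inv, e_one]
      have := zadd_self (a.e + coc C a.v a.v)
      linear_combination this
    · simp only [v_mul, v_inv, v_one, vadd_self])

/-- the underlying equivalence with a product -/
def toProd (C : Matrix ι ι (ZMod 2)) : XC C ≃ ZMod 2 × (ι → ZMod 2) where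
  toFun a := (a.e, a.v)
  invFun p := ⟨p.1, p.2⟩
  left_inv _ := rfl
  right_inv _ := rfl

instance instFiniteXC : Finite (XC C) := Finite.of_equiv _ (toProd C).symm

theorem card_XC : Nat.card (XC C) = 2 ^ (Fintype.card ι + 1) := by
  rw [Nat.card_congr (toProd C), Nat.card_prod, Nat.card_fun, Nat.card_zmod,
    Nat.card_eq_fintype_card, pow_succ, mul_comm]

/-- the central involution -/
def zc (C : Matrix ι ι (ZMod 2)) : XC C := ⟨1, 0⟩

theorem mul_comm_twist (a b : XC C) :
    a * b = (⟨coc C a.v b.v + coc C b.v a.v, 0⟩ : XC C) * (b * a) := by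
  apply XC.ext
  · simp only [e_mul, v_mul, coc_zero_left, add_zero]
    have := zadd_self (coc C b.v a.v)
    linear_combination (-1 : ZMod 2) * this
  · show a.v + b.v = 0 + (b.v + a.v)
    rw [zero_add, add_comm]

theorem sq_eq (a : XC C) : a * a = ⟨coc C a.v a.v, 0⟩ := by
  apply XC.ext
  · simp only [e_mul]
    have := zadd_self a.e
    linear_combination this
  · simp only [v_mul, vadd_self]

theorem commutator_eq (a b : XC C) : ⁅a, b⁆ = ⟨coc C a.v b.v + coc C b.v a.v, 0⟩ := by
  rw [commutatorElement_def, mul_comm_twist a b]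
  group

/-! ### The centre -/

section center

variable (σ : ι → ι) (hσ : ∀ i j, C i j + C j i = if i = σ j then 1 else 0)
include hσ

theorem sigma_invol (j : ι) : σ (σ j) = j := by
  have h1 := hσ (σ j) j
  have h2 := hσ j (σ j)
  rw [if_pos rfl] at h1
  rw [add_comm, h1] at h2
  by_contra hne
  rw [if_neg (fun h => hne h.symm)] at h2
  exact one_ne_zero h2

theorem bil_single (u : ι → ZMod 2) (k : ι) :
    coc C u (Pi.single k 1) + coc C (Pi.single k 1) u = u (σ k) := by
  unfold coc
  rw [mulVec_single_one, single_one_dotProduct]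
  simp only [dotProduct, mulVec, col_apply]
  rw [← Finset.sum_add_distrib]
  have : ∀ i ∈ (Finset.univ : Finset ι), u i * C i k + C k i * u i =
      if i = σ k then u i else 0 := by
    intro i _
    have := hσ i k
    split_ifs with h
    · rw [if_pos h] at this
      linear_combination u i * this
    · rw [if_neg h] at this
      linear_combination u i * this
  rw [Finset.sum_congr rfl this, Finset.sum_ite_eq' Finset.univ (σ k) u, if_pos (Finset.mem_univ _)]

theorem mem_center_iff (a : XC C) : a ∈ Subgroup.center (XC C) ↔ a.v = 0 := by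
  rw [Subgroup.mem_center_iff]
  constructor
  · intro h
    funext i
    have h1 := congrArg XC.e (h ⟨0, Pi.single (σ i) 1⟩)
    simp only [e_mul] at h1
    have h2 := bil_single σ hσ a.v (σ i)
    rw [sigma_invol σ hσ] at h2
    rw [← h2, Pi.zero_apply]
    have := zadd_self (coc C a.v (Pi.single (σ i) 1))
    linear_combination h1 + this
  · intro h g
    apply XC.ext
    · simp only [e_mul, h, coc_zero_left, coc_zero_right]; ring
    · simp only [v_mul, add_comm]

theorem zc_mem_center : zc C ∈ Subgroup.center (XC C) := (mem_center_iff σ hσ _).2 rfl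

theorem zc_ne_one : zc C ≠ 1 := fun h => one_ne_zero (congrArg XC.e h)

theorem eq_one_or_zc (a : XC C) (ha : a ∈ Subgroup.center (XC C)) : a = 1 ∨ a = zc C := by
  have hv := (mem_center_iff σ hσ a).1 ha
  have he : a.e = 0 ∨ a.e = 1 := by
    generalize a.e = t
    revert t; decide
  rcases he with he | he
  · left; exact XC.ext he hv
  · right; exact XC.ext he hv

theorem card_center : Nat.card (Subgroup.center (XC C)) = 2 := by
  have e : Subgroup.center (XC C) ≃ ZMod 2 :=
    { toFun := fun a => a.1.e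
      invFun := fun t => ⟨⟨t, 0⟩, (mem_center_iff σ hσ _).2 rfl⟩
      left_inv := fun a => Subtype.ext (XC.ext rfl ((mem_center_iff σ hσ a.1).1 a.2).symm)
      right_inv := fun t => rfl }
  rw [Nat.card_congr e, Nat.card_zmod]

theorem commutator_mem_center (a b : XC C) : ⁅a, b⁆ ∈ Subgroup.center (XC C) := by
  rw [commutator_eq]; exact (mem_center_iff σ hσ _).2 rfl

theorem exists_commutator_ne_one [Nonempty ι] : ∃ a b : XC C, ⁅a, b⁆ ≠ 1 := by
  obtain ⟨k⟩ := ‹Nonempty ι›
  refine ⟨⟨0, Pi.single (σ k) 1⟩, ⟨0, Pi.single k 1⟩, ?_⟩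
  rw [commutator_eq]
  intro h
  have h1 := congrArg XC.e h
  simp only [bil_single σ hσ, Pi.single_eq_same] at h1
  exact one_ne_zero h1

end center

/-! ### The induced map on the vector part -/

section theta

variable (σ : ι → ι) (hσ : ∀ i j, C i j + C j i = if i = σ j then 1 else 0)
include hσ

theorem aut_zc (φ : MulAut (XC C)) : φ (zc C) = zc C := by
  have h1 : φ (zc C) ∈ Subgroup.center (XC C) := by
    rw [Subgroup.mem_center_iff]
    intro g
    have h2 := (Subgroup.mem_center_iff.1 (zc_mem_center σ hσ)) (φ.symm g)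
    have h3 := congrArg φ h2
    rw [map_mul, map_mul, MulEquiv.apply_symm_apply] at h3
    exact h3
  rcases eq_one_or_zc σ hσ _ h1 with h | h
  · exfalso
    exact zc_ne_one σ hσ (φ.injective (h.trans (map_one φ).symm))
  · exact h

theorem aut_central (φ : MulAut (XC C)) (t : ZMod 2) : φ ⟨t, 0⟩ = ⟨t, 0⟩ := by
  have ht : t = 0 ∨ t = 1 := by revert t; decide
  rcases ht with rfl | rfl
  · exact map_one φ
  · exact aut_zc σ hσ φ

omit hσ in
theorem split (a : XC C) : a = (⟨a.e, 0⟩ : XC C) * ⟨0, a.v⟩ := by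
  apply XC.ext
  · show a.e = a.e + 0 + coc C 0 a.v
    rw [coc_zero_left, add_zero, add_zero]
  · show a.v = 0 + a.v
    rw [zero_add]

/-- the induced additive map -/
def bar (φ : MulAut (XC C)) : (ι → ZMod 2) →+ (ι → ZMod 2) where
  toFun v := (φ ⟨0, v⟩).v
  map_zero' := by
    show (φ 1).v = 0
    rw [map_one]; rfl
  map_add' u v := by
    have h : (⟨0, u + v⟩ : XC C) = (⟨coc C u v, 0⟩ : XC C) * (⟨0, u⟩ * ⟨0, v⟩) := by
      apply XC.ext
      · show (0 : ZMod 2) = coc C u v + (0 + 0 + coc C u v) + coc C 0 (u + v)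
        rw [coc_zero_left]
        have := zadd_self (coc C u v)
        linear_combination (-1 : ZMod 2) * this
      · show u + v = 0 + (u + v)
        rw [zero_add]
    show (φ ⟨0, u + v⟩).v = (φ ⟨0, u⟩).v + (φ ⟨0, v⟩).v
    rw [h, map_mul, map_mul, aut_central σ hσ, v_mul, v_mul, zero_add]

theorem v_apply (φ : MulAut (XC C)) (a : XC C) : (φ a).v = bar σ hσ φ a.v := by
  conv_lhs => rw [split a]
  rw [map_mul, aut_central σ hσ, v_mul, zero_add]
  rfl

theorem bar_mul (φ ψ : MulAut (XC C)) (v : ι → ZMod 2) :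
    bar σ hσ (φ * ψ) v = bar σ hσ φ (bar σ hσ ψ v) := by
  show (φ (ψ ⟨0, v⟩)).v = _
  rw [v_apply σ hσ φ]
  rfl

theorem bar_one (v : ι → ZMod 2) : bar σ hσ (1 : MulAut (XC C)) v = v := rfl

theorem quad_bar (φ : MulAut (XC C)) (v : ι → ZMod 2) :
    coc C (bar σ hσ φ v) (bar σ hσ φ v) = coc C v v := by
  have h := congrArg φ (sq_eq (⟨0, v⟩ : XC C))
  rw [map_mul, sq_eq, aut_central σ hσ] at h
  exact congrArg XC.e h

/-- the matrix of the induced map -/
noncomputable def mat (φ : MulAut (XC C)) : Matrix ι ι (ZMod 2) :=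
  LinearMap.toMatrix' ((bar σ hσ φ).toZModLinearMap 2)

theorem mat_mulVec (φ : MulAut (XC C)) (v : ι → ZMod 2) : mat σ hσ φ *ᵥ v = bar σ hσ φ v := by
  unfold mat
  rw [← Matrix.toLin'_apply, Matrix.toLin'_toMatrix']
  rfl

omit hσ in
theorem eq_of_mulVec {M N : Matrix ι ι (ZMod 2)} (h : ∀ v, M *ᵥ v = N *ᵥ v) : M = N := by
  apply Matrix.toLin'.injective
  apply LinearMap.ext
  intro v
  rw [Matrix.toLin'_apply, Matrix.toLin'_apply, h]

/-- the matrix of the induced map, as a monoid hom -/
noncomputable def matHom : MulAut (XC C) →* Matrix ι ι (ZMod 2) where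
  toFun := mat σ hσ
  map_one' := eq_of_mulVec (fun v => by rw [mat_mulVec, one_mulVec]; rfl)
  map_mul' φ ψ := eq_of_mulVec (fun v => by
    rw [mat_mulVec, ← mulVec_mulVec, mat_mulVec, mat_mulVec, bar_mul])

/-- the induced element of the general linear group -/
noncomputable def theta0 : MulAut (XC C) →* Matrix.GeneralLinearGroup ι (ZMod 2) :=
  (matHom σ hσ).toHomUnits

theorem theta0_coe (φ : MulAut (XC C)) :
    ((theta0 σ hσ φ : Matrix.GeneralLinearGroup ι (ZMod 2)) : Matrix ι ι (ZMod 2)) =
      mat σ hσ φ := rfl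

variable (Q : (ι → ZMod 2) → ZMod 2) (hQ : ∀ v, Q v = coc C v v)
include hQ

theorem theta0_mem (φ : MulAut (XC C)) : theta0 σ hσ φ ∈ Cfsg.isometryGroup (ZMod 2) Q := by
  intro u v
  show Q (mat σ hσ φ *ᵥ u) = Q u
  rw [mat_mulVec, hQ, hQ, quad_bar]

/-- the homomorphism from the automorphism group to the isometry group -/
noncomputable def theta : MulAut (XC C) →* Cfsg.isometryGroup (ZMod 2) Q :=
  (theta0 σ hσ).codRestrict _ (theta0_mem σ hσ Q hQ)

theorem theta_eq_one_iff (φ : MulAut (XC C)) :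
    theta σ hσ Q hQ φ = 1 ↔ ∀ v, bar σ hσ φ v = v := by
  constructor
  · intro h v
    have h1 : mat σ hσ φ = 1 := by
      have := congrArg (fun x : Cfsg.isometryGroup (ZMod 2) Q =>
        ((x : Matrix.GeneralLinearGroup ι (ZMod 2)) : Matrix ι ι (ZMod 2))) h
      exact this
    rw [← mat_mulVec, h1, one_mulVec]
  · intro h
    apply Subtype.ext
    apply Units.ext
    show mat σ hσ φ = 1
    exact eq_of_mulVec (fun v => by rw [mat_mulVec, h, one_mulVec])

end theta

/-! ### The kernel: inner automorphisms -/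

section kernel

variable (σ : ι → ι) (hσ : ∀ i j, C i j + C j i = if i = σ j then 1 else 0)
include hσ

theorem bil_eq_sum (u v : ι → ZMod 2) :
    coc C u v + coc C v u = ∑ j, u (σ j) * v j := by
  rw [coc_eq_sum, coc_eq_sum]
  rw [Finset.sum_comm (f := fun i j => C i j * v i * u j)]
  rw [← Finset.sum_add_distrib]
  have h1 : ∀ x ∈ (Finset.univ : Finset ι),
      (∑ j, C x j * u x * v j + ∑ x_1, C x_1 x * v x_1 * u x) =
        ∑ j, (if x = σ j then u x * v j else 0) := by
    intro x _
    rw [← Finset.sum_add_distrib]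
    refine Finset.sum_congr rfl fun j _ => ?_
    have := hσ x j
    split_ifs with h
    · rw [if_pos h] at this; linear_combination (u x * v j) * this
    · rw [if_neg h] at this; linear_combination (u x * v j) * this
  rw [Finset.sum_congr rfl h1, Finset.sum_comm]
  refine Finset.sum_congr rfl fun j _ => ?_
  rw [Finset.sum_ite_eq' Finset.univ (σ j) (fun x => u x * v j), if_pos (Finset.mem_univ _)]

theorem bar_conj (a : XC C) (v : ι → ZMod 2) : bar σ hσ (MulAut.conj a) v = v := by
  show (a * ⟨0, v⟩ * a⁻¹).v = v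
  rw [v_mul, v_mul, v_inv]
  funext i
  show a.v i + v i + a.v i = v i
  linear_combination zadd_self (a.v i)

omit hσ in
theorem single_fun (i : ι) :
    (fun j => if i = j then (1 : ZMod 2) else 0) = Pi.single i 1 := by
  funext j
  rw [Pi.single_apply]
  by_cases h : i = j
  · rw [if_pos h, if_pos h.symm]
  · rw [if_neg h, if_neg (fun h' => h h'.symm)]

theorem inner_of_bar (φ : MulAut (XC C)) (h : ∀ v, bar σ hσ φ v = v) :
    ∃ w : XC C, φ = MulAut.conj w := by
  have hv : ∀ a, (φ a).v = a.v := fun a => by rw [v_apply σ hσ, h]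
  let f : (ι → ZMod 2) →+ ZMod 2 :=
    { toFun := fun v => (φ ⟨0, v⟩).e
      map_zero' := by
        show (φ 1).e = 0
        rw [map_one]; rfl
      map_add' := fun u v => by
        have h1 : (⟨0, u⟩ : XC C) * ⟨0, v⟩ = ⟨coc C u v, 0⟩ * ⟨0, u + v⟩ := by
          apply XC.ext
          · show (0 : ZMod 2) + 0 + coc C u v = coc C u v + 0 + coc C 0 (u + v)
            rw [coc_zero_left]; ring
          · show u + v = 0 + (u + v)
            rw [zero_add]
        have h2 := congrArg (fun x => (φ x).e) h1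
        simp only [map_mul, e_mul, aut_central σ hσ, hv, coc_zero_left] at h2
        show (φ ⟨0, u + v⟩).e = (φ ⟨0, u⟩).e + (φ ⟨0, v⟩).e
        linear_combination (-1 : ZMod 2) * h2 }
  have hf : ∀ v, f v = ∑ j, v j * f (Pi.single j 1) := by
    intro v
    have := LinearMap.pi_apply_eq_sum_univ (f.toZModLinearMap 2) v
    simp only [single_fun, smul_eq_mul] at this
    exact this
  have he : ∀ a : XC C, (φ a).e = a.e + f a.v := by
    intro a
    conv_lhs => rw [split a]
    rw [map_mul, aut_central σ hσ, e_mul, hv, coc_zero_left, add_zero]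
    rfl
  refine ⟨⟨0, fun i => f (Pi.single (σ i) 1)⟩, ?_⟩
  apply MulEquiv.ext
  intro a
  apply XC.ext
  · rw [he, hf]
    show _ = (0 + a.e + coc C (fun i => f (Pi.single (σ i) 1)) a.v) +
      (0 + coc C (fun i => f (Pi.single (σ i) 1)) (fun i => f (Pi.single (σ i) 1))) +
      coc C ((fun i => f (Pi.single (σ i) 1)) + a.v) (fun i => f (Pi.single (σ i) 1))
    rw [coc_add_left]
    have hb := bil_eq_sum σ hσ (fun i => f (Pi.single (σ i) 1)) a.v
    simp only [sigma_invol σ hσ] at hb
    have h2 := zadd_self (coc C (fun i => f (Pi.single (σ i) 1)) (fun i => f (Pi.single (σ i) 1)))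
    have h3 : ∑ j, a.v j * f (Pi.single j 1) = ∑ j, f (Pi.single j 1) * a.v j :=
      Finset.sum_congr rfl fun j _ => mul_comm _ _
    rw [h3, ← hb]
    linear_combination (-1 : ZMod 2) * h2
  · rw [hv]
    show a.v = (fun i => f (Pi.single (σ i) 1)) + a.v + (fun i => f (Pi.single (σ i) 1))
    funext i
    show a.v i = f (Pi.single (σ i) 1) + a.v i + f (Pi.single (σ i) 1)
    linear_combination (-1 : ZMod 2) * zadd_self (f (Pi.single (σ i) 1))

end kernel

/-! ### Surjectivity: lifting isometries -/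

section surj

theorem exists_quad (D : Matrix ι ι (ZMod 2)) (hD0 : ∀ i, D i i = 0)
    (hDs : ∀ i j, D i j = D j i) :
    ∃ f : (ι → ZMod 2) → ZMod 2,
      ∀ u v, f (u + v) = f u + f v + ∑ i, ∑ j, D i j * u i * v j := by
  obtain ⟨r, hr⟩ : ∃ r : ι → ℕ, Function.Injective r :=
    ⟨fun i => (Fintype.equivFin ι i : ℕ), fun i j h => (Fintype.equivFin ι).injective (Fin.ext h)⟩
  refine ⟨fun v => ∑ i, ∑ j, if r i < r j then D i j * v i * v j else 0, ?_⟩
  intro u v
  have hsw : ∑ i, ∑ j, (if r i < r j then D i j * v i * u j else 0) =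
      ∑ i, ∑ j, (if r j < r i then D i j * u i * v j else 0) := by
    rw [Finset.sum_comm]
    refine Finset.sum_congr rfl fun i _ => Finset.sum_congr rfl fun j _ => ?_
    rw [hDs j i]
    split_ifs <;> ring
  have hD : ∑ i, ∑ j, D i j * u i * v j =
      ∑ i, ∑ j, (if r i < r j then D i j * u i * v j else 0) +
        ∑ i, ∑ j, (if r j < r i then D i j * u i * v j else 0) := by
    rw [← Finset.sum_add_distrib]
    refine Finset.sum_congr rfl fun i _ => ?_
    rw [← Finset.sum_add_distrib]
    refine Finset.sum_congr rfl fun j _ => ?_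
    rcases lt_trichotomy (r i) (r j) with h | h | h
    · rw [if_pos h, if_neg (by omega), add_zero]
    · have hij := hr h
      subst hij
      rw [hD0, if_neg (lt_irrefl _), zero_mul, zero_mul, add_zero]
    · rw [if_neg (by omega), if_pos h, zero_add]
  rw [hD, ← hsw]
  simp only [← Finset.sum_add_distrib]
  refine Finset.sum_congr rfl fun i _ => Finset.sum_congr rfl fun j _ => ?_
  simp only [Pi.add_apply]
  split_ifs <;> ring

theorem sum_single (D : Matrix ι ι (ZMod 2)) (i j : ι) :
    ∑ i', ∑ j', D i' j' * (Pi.single i 1 : ι → ZMod 2) i' * (Pi.single j 1 : ι → ZMod 2) j' =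
      D i j := by
  simp [Pi.single_apply]

variable (σ : ι → ι) (hσ : ∀ i j, C i j + C j i = if i = σ j then 1 else 0)
variable (Q : (ι → ZMod 2) → ZMod 2) (hQ : ∀ v, Q v = coc C v v)
include hσ hQ

theorem theta_surjective : Function.Surjective (theta σ hσ Q hQ) := by
  rintro ⟨g, hg⟩
  set G : Matrix ι ι (ZMod 2) := (g : Matrix ι ι (ZMod 2)) with hG
  have hgQ : ∀ u, coc C (G *ᵥ u) (G *ᵥ u) = coc C u u := fun u => by
    rw [← hQ, ← hQ]; exact hg u u
  set D : Matrix ι ι (ZMod 2) := Gᵀ * C * G + C with hDdef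
  have hDc : ∀ u v, coc C (G *ᵥ u) (G *ᵥ v) + coc C u v = ∑ i, ∑ j, D i j * u i * v j := by
    intro u v
    rw [← coc_eq_sum]
    unfold coc
    rw [hDdef, add_mulVec, dotProduct_add, ← mulVec_mulVec, ← mulVec_mulVec,
      dotProduct_mulVec u Gᵀ, vecMul_transpose]
  have hD0 : ∀ i, D i i = 0 := by
    intro i
    rw [← sum_single D i i, ← hDc, hgQ]
    exact zadd_self _
  have hDs : ∀ i j, D i j = D j i := by
    intro i j
    have h1 := hDc (Pi.single i 1 + Pi.single j 1) (Pi.single i 1 + Pi.single j 1)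
    rw [hgQ, zadd_self] at h1
    have h2 : ∑ i', ∑ j', D i' j' * (Pi.single i 1 + Pi.single j 1 : ι → ZMod 2) i' *
        (Pi.single i 1 + Pi.single j 1 : ι → ZMod 2) j' = D i i + D i j + D j i + D j j := by
      rw [← sum_single D i i, ← sum_single D i j, ← sum_single D j i, ← sum_single D j j]
      simp only [← Finset.sum_add_distrib]
      refine Finset.sum_congr rfl fun i' _ => Finset.sum_congr rfl fun j' _ => ?_
      simp only [Pi.add_apply]
      ring
    rw [h2, hD0, hD0] at h1
    have h3 := zadd_self (D j i)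
    linear_combination (-1 : ZMod 2) * h1 - h3
  obtain ⟨f, hf⟩ := exists_quad D hD0 hDs
  have hf0 : f 0 = 0 := by
    have := hf 0 0
    simp only [add_zero, Pi.zero_apply, mul_zero, Finset.sum_const_zero] at this
    linear_combination (-1 : ZMod 2) * this
  let φ₀ : XC C →* XC C := MonoidHom.mk' (fun a => ⟨a.e + f a.v, G *ᵥ a.v⟩) (by
    intro a b
    apply XC.ext
    · show (a.e + b.e + coc C a.v b.v) + f (a.v + b.v) =
        (a.e + f a.v) + (b.e + f b.v) + coc C (G *ᵥ a.v) (G *ᵥ b.v)
      rw [hf, ← hDc]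
      have := zadd_self (coc C a.v b.v)
      linear_combination this
    · show G *ᵥ (a.v + b.v) = G *ᵥ a.v + G *ᵥ b.v
      rw [mulVec_add])
  have hGinj : ∀ x y : ι → ZMod 2, G *ᵥ x = G *ᵥ y → x = y := by
    intro x y h
    have h1 := congrArg (fun w => ((g⁻¹ : Matrix.GeneralLinearGroup ι (ZMod 2)) :
      Matrix ι ι (ZMod 2)) *ᵥ w) h
    simp only [mulVec_mulVec] at h1
    rw [hG, ← Units.val_mul, inv_mul_cancel, Units.val_one, one_mulVec, one_mulVec] at h1
    exact h1
  have hinj : Function.Injective φ₀ := by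
    intro a b h
    have hv : a.v = b.v := hGinj _ _ (congrArg XC.v h)
    have he : a.e + f a.v = b.e + f b.v := congrArg XC.e h
    rw [hv] at he
    exact XC.ext (add_right_cancel he) hv
  refine ⟨MulEquiv.ofBijective φ₀ ⟨hinj, Finite.injective_iff_surjective.1 hinj⟩, ?_⟩
  apply Subtype.ext
  apply Units.ext
  show mat σ hσ _ = G
  exact eq_of_mulVec (fun v => by rw [mat_mulVec]; rfl)

theorem inn_eq_ker : Cfsg.Inn (XC C) = (theta σ hσ Q hQ).ker := by
  ext φ
  rw [MonoidHom.mem_ker, theta_eq_one_iff]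
  constructor
  · rintro ⟨a, rfl⟩ v
    exact bar_conj σ hσ a v
  · intro h
    obtain ⟨w, hw⟩ := inner_of_bar σ hσ φ h
    exact ⟨w, hw.symm⟩

/-- `Out` of the model is the isometry group of its quadratic form. -/
noncomputable def outEquiv : Cfsg.Out (XC C) ≃* Cfsg.isometryGroup (ZMod 2) Q :=
  (QuotientGroup.quotientMulEquivOfEq (inn_eq_ker σ hσ Q hQ)).trans
    (QuotientGroup.quotientKerEquivOfSurjective _ (theta_surjective σ hσ Q hQ))

end surj

/-! ### Transport of `Out` along an isomorphism -/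

theorem congr_conj' {E E' : Type*} [Group E] [Group E'] (φ : E ≃* E') (b : E) :
    MulAut.congr φ (MulAut.conj b) = MulAut.conj (φ b) := by
  apply MulEquiv.ext
  intro y
  simp [MulAut.congr]

/-- isomorphic groups have isomorphic outer automorphism groups -/
noncomputable def outCongr {E E' : Type*} [Group E] [Group E'] (φ : E ≃* E') :
    Cfsg.Out E ≃* Cfsg.Out E' :=
  QuotientGroup.congr (Cfsg.Inn E) (Cfsg.Inn E') (MulAut.congr φ) (by
    ext ψ
    constructor
    · rintro ⟨_, ⟨a, rfl⟩, rfl⟩
      exact ⟨φ a, (congr_conj' φ a).symm⟩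
    · rintro ⟨b, rfl⟩
      refine ⟨MulAut.conj (φ.symm b), ⟨_, rfl⟩, ?_⟩
      show MulAut.congr φ (MulAut.conj (φ.symm b)) = _
      rw [congr_conj', MulEquiv.apply_symm_apply])

end Cfsg.Agent.Lib.Helper6.OutES
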