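import Mathlib
import Cfsg.Prelude.Def_CaseTheorems
import Cfsg.Agent.Lib.Helper6.OutES
import Cfsg.Agent.Lib.Helper2.ES2Rank
import Cfsg.Agent.Lib.Helper2.ESLExtra

/-!
# The plus and minus cocycle models

`XC (Cplus n)` is the extraspecial group `2^{1+2n}_+` and `XC (Cminus m)` is `2^{1+2(m+1)}_-`;
their quadratic forms are literally `Cfsg.quadFormPlus n (ZMod 2)` and
`Cfsg.quadFormMinus m (ZMod 2) 1 1`.
-/

set_option autoImplicit false
set_option linter.unusedSectionVars false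

namespace Cfsg.Agent.Lib.Helper6.OutES

open scoped commutatorElement
open Matrix
open Cfsg.Agent.Lib.Helper2.ES2 Cfsg.Agent.Lib.Helper2.ESL

section generic

variable {ι : Type} [Fintype ι] [DecidableEq ι] {C : Matrix ι ι (ZMod 2)}

theorem coc_single_single (C : Matrix ι ι (ZMod 2)) (i j : ι) :
    coc C (Pi.single i 1) (Pi.single j 1) = C i j := by
  unfold coc
  rw [mulVec_single_one, single_one_dotProduct]
  rfl

theorem commute_iff (a b : XC C) : Commute a b ↔ coc C a.v b.v + coc C b.v a.v = 0 := by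
  constructor
  · intro h
    have h1 := congrArg XC.e h.eq
    simp only [e_mul] at h1
    have := zadd_self (coc C b.v a.v)
    linear_combination h1 + this
  · intro h
    apply XC.ext
    · simp only [e_mul]
      have := zadd_self (coc C b.v a.v)
      linear_combination h - this
    · simp only [v_mul, add_comm]

theorem commute_single (σ : ι → ι) (hσ : ∀ i j, C i j + C j i = if i = σ j then 1 else 0)
    (a : XC C) (k : ι) : Commute a (⟨0, Pi.single k 1⟩ : XC C) ↔ a.v (σ k) = 0 := by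
  rw [commute_iff, bil_single σ hσ]

theorem sq_single (k : ι) : (⟨0, Pi.single k 1⟩ : XC C) ^ 2 = ⟨C k k, 0⟩ := by
  rw [pow_two, sq_eq, coc_single_single]

theorem isExtraspecial_XC [Nonempty ι] (σ : ι → ι)
    (hσ : ∀ i j, C i j + C j i = if i = σ j then 1 else 0) : Cfsg.IsExtraspecial 2 (XC C) :=
  isExtraspecial_of (card_center σ hσ) (commutator_mem_center σ hσ)
    (exists_commutator_ne_one σ hσ)

end generic

/-! ### Plus type -/

/-- cocycle matrix of the plus-type form -/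
def Cplus (n : ℕ) : Matrix (Fin n ⊕ Fin n) (Fin n ⊕ Fin n) (ZMod 2) := fun i j =>
  match i, j with
  | Sum.inl a, Sum.inr b => if a = b then 1 else 0
  | _, _ => 0

theorem hσ_plus (n : ℕ) :
    ∀ i j, Cplus n i j + Cplus n j i = if i = Sum.swap j then 1 else 0 := by
  rintro (a | a) (b | b)
  · simp [Cplus]
  · simp [Cplus]
  · simp [Cplus, eq_comm]
  · simp [Cplus]

theorem coc_plus (n : ℕ) (u v : Fin n ⊕ Fin n → ZMod 2) :
    coc (Cplus n) u v = ∑ i, u (Sum.inl i) * v (Sum.inr i) := by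
  rw [coc_eq_sum]
  simp [Fintype.sum_sum_type, Cplus]

theorem hQ_plus (n : ℕ) : ∀ v, Cfsg.quadFormPlus n (ZMod 2) v = coc (Cplus n) v v := by
  intro v
  rw [coc_plus]
  rfl

theorem card_plus (n : ℕ) : Nat.card (XC (Cplus n)) = 2 ^ (2 * n + 1) := by
  rw [card_XC, Fintype.card_sum, Fintype.card_fin, two_mul]

/-- the elementary abelian subgroup of the plus model -/
def Aplus (n : ℕ) : Subgroup (XC (Cplus n)) where
  carrier := {a | ∀ i, a.v (Sum.inr i) = 0}
  mul_mem' := by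
    intro a b ha hb i
    show a.v (Sum.inr i) + b.v (Sum.inr i) = 0
    rw [ha i, hb i, add_zero]
  one_mem' := fun i => rfl
  inv_mem' := by
    intro a ha i
    exact ha i

theorem coc_Aplus (n : ℕ) (u : Fin n ⊕ Fin n → ZMod 2) {b : XC (Cplus n)} (hb : b ∈ Aplus n) :
    coc (Cplus n) u b.v = 0 := by
  rw [coc_plus]
  exact Finset.sum_eq_zero fun i _ => by rw [hb i, mul_zero]

instance Aplus_comm (n : ℕ) : IsMulCommutative (Aplus n) :=
  IsMulCommutative.of_setLike_mul_comm fun a ha b hb => by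
    have := (commute_iff a b).2 (by rw [coc_Aplus n _ hb, coc_Aplus n _ ha, add_zero])
    exact this.eq

theorem Aplus_sq (n : ℕ) (a : XC (Cplus n)) (ha : a ∈ Aplus n) : a ^ 2 = 1 := by
  rw [pow_two, sq_eq, coc_Aplus n _ ha]
  rfl

theorem card_Aplus (n : ℕ) : 2 ^ (n + 1) ≤ Nat.card (Aplus n) := by
  let f : ZMod 2 × (Fin n → ZMod 2) → Aplus n :=
    fun t => ⟨⟨t.1, Sum.elim t.2 0⟩, fun i => rfl⟩
  have hf : Function.Injective f := by
    intro s t h
    have h1 := congrArg (fun a : Aplus n => a.1.e) h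
    have h2 := congrArg (fun a : Aplus n => a.1.v) h
    apply Prod.ext
    · exact h1
    · funext i
      exact congrFun h2 (Sum.inl i)
  have h := Nat.card_le_card_of_injective f hf
  rw [Nat.card_prod, Nat.card_fun, Nat.card_zmod, Nat.card_fin] at h
  rw [pow_succ, mul_comm]
  exact h

theorem not_pRankLE_plus (n : ℕ) : ¬ Cfsg.PRankLE 2 n (XC (Cplus n)) := by
  intro h
  have h1 := h (Aplus n) inferInstance (Aplus_sq n)
  have h2 := card_Aplus n
  have h3 : 2 ^ n < 2 ^ (n + 1) := Nat.pow_lt_pow_right (by norm_num) (by omega)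
  omega

theorem isExtraspecial_plus (n : ℕ) (hn : 1 ≤ n) : Cfsg.IsExtraspecial 2 (XC (Cplus n)) := by
  have : Nonempty (Fin n ⊕ Fin n) := ⟨Sum.inl ⟨0, hn⟩⟩
  exact isExtraspecial_XC Sum.swap (hσ_plus n)

/-! ### Minus type -/

/-- cocycle matrix of the minus-type form -/
def Cminus (m : ℕ) :
    Matrix ((Fin m ⊕ Fin m) ⊕ Fin 2) ((Fin m ⊕ Fin m) ⊕ Fin 2) (ZMod 2) := fun i j =>
  match i, j with
  | Sum.inl (Sum.inl a), Sum.inl (Sum.inr b) => if a = b then 1 else 0
  | Sum.inr s, Sum.inr t => if s ≤ t then 1 else 0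
  | _, _ => 0

/-- the involution of the index set -/
def sigMinus (m : ℕ) : (Fin m ⊕ Fin m) ⊕ Fin 2 → (Fin m ⊕ Fin m) ⊕ Fin 2 :=
  Sum.map Sum.swap Fin.rev

theorem hσ_minus (m : ℕ) :
    ∀ i j, Cminus m i j + Cminus m j i = if i = sigMinus m j then 1 else 0 := by
  rintro ((a | a) | s) ((b | b) | t)
  · simp [Cminus, sigMinus]
  · simp [Cminus, sigMinus]
  · simp [Cminus, sigMinus]
  · simp [Cminus, sigMinus, eq_comm]
  · simp [Cminus, sigMinus]
  · simp [Cminus, sigMinus]
  · simp [Cminus, sigMinus]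
  · simp [Cminus, sigMinus]
  · simp only [Cminus, sigMinus, Sum.map_inr, Sum.inr.injEq]
    revert s t
    decide

theorem coc_minus (m : ℕ) (u v : (Fin m ⊕ Fin m) ⊕ Fin 2 → ZMod 2) :
    coc (Cminus m) u v = ∑ i, u (Sum.inl (Sum.inl i)) * v (Sum.inl (Sum.inr i)) +
      (u (Sum.inr 0) * v (Sum.inr 0) + u (Sum.inr 0) * v (Sum.inr 1) +
        u (Sum.inr 1) * v (Sum.inr 1)) := by
  rw [coc_eq_sum]
  simp [Fintype.sum_sum_type, Fin.sum_univ_two, Cminus]

theorem hQ_minus (m : ℕ) :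
    ∀ v, Cfsg.quadFormMinus m (ZMod 2) 1 1 v = coc (Cminus m) v v := by
  intro v
  rw [coc_minus]
  unfold Cfsg.quadFormMinus
  ring

theorem card_minus (m : ℕ) : Nat.card (XC (Cminus m)) = 2 ^ (2 * (m + 1) + 1) := by
  rw [card_XC, Fintype.card_sum, Fintype.card_sum, Fintype.card_fin, Fintype.card_fin]
  congr 1
  omega

theorem isExtraspecial_minus (m : ℕ) : Cfsg.IsExtraspecial 2 (XC (Cminus m)) := by
  have : Nonempty ((Fin m ⊕ Fin m) ⊕ Fin 2) := ⟨Sum.inr 0⟩
  exact isExtraspecial_XC (sigMinus m) (hσ_minus m)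

/-- an elementary abelian subgroup of the minus model -/
def Aminus (m : ℕ) : Subgroup (XC (Cminus m)) where
  carrier := {a | (∀ i, a.v (Sum.inl (Sum.inr i)) = 0) ∧ ∀ t, a.v (Sum.inr t) = 0}
  mul_mem' := by
    intro a b ha hb
    refine ⟨fun i => ?_, fun t => ?_⟩
    · show a.v (Sum.inl (Sum.inr i)) + b.v (Sum.inl (Sum.inr i)) = 0
      rw [ha.1 i, hb.1 i, add_zero]
    · show a.v (Sum.inr t) + b.v (Sum.inr t) = 0
      rw [ha.2 t, hb.2 t, add_zero]
  one_mem' := ⟨fun i => rfl, fun t => rfl⟩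
  inv_mem' := by
    intro a ha
    exact ha

theorem coc_Aminus (m : ℕ) (u : (Fin m ⊕ Fin m) ⊕ Fin 2 → ZMod 2) {b : XC (Cminus m)}
    (hb : b ∈ Aminus m) : coc (Cminus m) u b.v = 0 := by
  rw [coc_minus, hb.2 0, hb.2 1]
  simp only [mul_zero, add_zero]
  exact Finset.sum_eq_zero fun i _ => by rw [hb.1 i, mul_zero]

instance Aminus_comm (m : ℕ) : IsMulCommutative (Aminus m) :=
  IsMulCommutative.of_setLike_mul_comm fun a ha b hb => by
    have := (commute_iff a b).2 (by rw [coc_Aminus m _ hb, coc_Aminus m _ ha, add_zero])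
    exact this.eq

theorem Aminus_sq (m : ℕ) (a : XC (Cminus m)) (ha : a ∈ Aminus m) : a ^ 2 = 1 := by
  rw [pow_two, sq_eq, coc_Aminus m _ ha]
  rfl

theorem card_Aminus (m : ℕ) : 2 ^ (m + 1) ≤ Nat.card (Aminus m) := by
  let f : ZMod 2 × (Fin m → ZMod 2) → Aminus m :=
    fun t => ⟨⟨t.1, Sum.elim (Sum.elim t.2 0) 0⟩, ⟨fun i => rfl, fun t => rfl⟩⟩
  have hf : Function.Injective f := by
    intro s t h
    have h1 := congrArg (fun a : Aminus m => a.1.e) h
    have h2 := congrArg (fun a : Aminus m => a.1.v) h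
    apply Prod.ext
    · exact h1
    · funext i
      exact congrFun h2 (Sum.inl (Sum.inl i))
  have h := Nat.card_le_card_of_injective f hf
  rw [Nat.card_prod, Nat.card_fun, Nat.card_zmod, Nat.card_fin] at h
  rw [pow_succ, mul_comm]
  exact h

theorem invCount_minus (m : ℕ) :
    invCount (XC (Cminus m)) + 2 ^ (m + 1) = 2 ^ (2 * (m + 1)) := by
  have hZ := card_center (sigMinus m) (hσ_minus m)
  have hc := commutator_mem_center (sigMinus m) (hσ_minus m)
  set x : XC (Cminus m) := ⟨0, Pi.single (Sum.inr 0) 1⟩ with hx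
  set y : XC (Cminus m) := ⟨0, Pi.single (Sum.inr 1) 1⟩ with hy
  have hxyz : ⁅x, y⁆ = ⟨1, 0⟩ := by
    rw [commutator_eq]
    apply XC.ext
    · show coc (Cminus m) (Pi.single (Sum.inr 0) 1) (Pi.single (Sum.inr 1) 1) +
        coc (Cminus m) (Pi.single (Sum.inr 1) 1) (Pi.single (Sum.inr 0) 1) = 1
      rw [coc_single_single, coc_single_single]
      simp [Cminus]
    · rfl
  have hxy : ⁅x, y⁆ ≠ 1 := by
    rw [hxyz]
    exact zc_ne_one (sigMinus m) (hσ_minus m)
  have hx2 : x ^ 2 = ⁅x, y⁆ := by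
    rw [hxyz, hx, sq_single]
    apply XC.ext
    · simp [Cminus]
    · rfl
  have hy2 : y ^ 2 = ⁅x, y⁆ := by
    rw [hxyz, hy, sq_single]
    apply XC.ext
    · simp [Cminus]
    · rfl
  have hcount := count_Q8 hZ hc x y hxy hx2 hy2
  have hB := card_pairKer hZ hc x y hxy
  rw [card_minus] at hB
  have eC : 2 ^ (2 * (m + 1) + 1) = 8 * 2 ^ (2 * m) := by ring
  have eD : 2 ^ (2 * (m + 1)) = 4 * 2 ^ (2 * m) := by ring
  have eE : 2 ^ (2 * m + 1) = 2 * 2 ^ (2 * m) := by ring
  have eB : 2 ^ (m + 1) = 2 * 2 ^ m := by ring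
  have hBcard : Nat.card (pairKer hc x y) = 2 ^ (2 * m + 1) := by
    rw [eE]; rw [eC] at hB; omega
  have hle : Aminus m ≤ pairKer hc x y := by
    intro a ha
    rw [mem_pairKer]
    refine ⟨(commute_single (sigMinus m) (hσ_minus m) a _).2 ?_,
      (commute_single (sigMinus m) (hσ_minus m) a _).2 ?_⟩
    · exact ha.2 _
    · exact ha.2 _
  have hcardA : Nat.card ((Aminus m).subgroupOf (pairKer hc x y)) = Nat.card (Aminus m) :=
    Nat.card_congr (Subgroup.subgroupOfEquivOfLe hle).toEquiv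
  have hplus := (rank_aux m (pairKer hc x y) (card_center_pairKer hZ hc _ _ hxy)
    (commutator_mem_center_pairKer hZ hc _ _ hxy) hBcard).2.2.1
    ⟨(Aminus m).subgroupOf (pairKer hc x y), inferInstance, by
        intro a ha
        rw [Subgroup.mem_subgroupOf] at ha
        apply Subtype.ext
        rw [Subgroup.coe_pow, Aminus_sq _ _ ha, Subgroup.coe_one], by
        rw [hcardA]; exact card_Aminus m⟩
  rw [hplus, hBcard, eE] at hcount
  rw [eD, eB]
  omega

theorem pRankLE_minus (m : ℕ) : Cfsg.PRankLE 2 (m + 1) (XC (Cminus m)) := by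
  intro A hAc hA2
  have hZ := card_center (sigMinus m) (hσ_minus m)
  have hc := commutator_mem_center (sigMinus m) (hσ_minus m)
  obtain ⟨-, -, r3, -⟩ := rank_aux (m + 1) (XC (Cminus m)) hZ hc (card_minus m)
  have hminus := invCount_minus m
  have hpa : 0 < 2 ^ (m + 1) := Nat.pos_of_ne_zero (by positivity)
  by_contra hgt
  have hdvd : Nat.card A ∣ 2 ^ (2 * (m + 1) + 1) := by
    rw [← card_minus m]; exact Subgroup.card_subgroup_dvd_card A
  obtain ⟨k, -, hk⟩ := (Nat.dvd_prime_pow Nat.prime_two).mp hdvd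
  have hkm : m + 1 + 1 ≤ k := by
    by_contra hkm
    have h1 : k ≤ m + 1 := by omega
    have := Nat.pow_le_pow_right (show 0 < 2 by norm_num) h1
    omega
  have h2 := Nat.pow_le_pow_right (show 0 < 2 by norm_num) hkm
  have := r3 ⟨A, hAc, hA2, by rw [hk]; exact h2⟩
  omega

end Cfsg.Agent.Lib.Helper6.OutES
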